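import Cfsg.Agent.Ft.A1

/-! The case `α = 0`. -/

set_option autoImplicit false
set_option linter.unusedSectionVars false
set_option linter.unusedVariables false
set_option synthInstance.maxSize 4000
set_option maxRecDepth 100000

namespace CF.Ft

open Cfsg Subgroup CF.Loc U A1

attribute [local irreducible] ac cd el ee lv dd τ bb

variable {G : Type*} [Group G] [Finite G] {ι : Sp →* G} {t g x y z s g0 g1 g2 : G} {m p : Sp} {u v w i j k : ℕ}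

namespace A0

/-- `x` centralises `Q` and moves `t` to `t m` -/
structure Tq (ι : Sp →* G) (t x : G) (m : Sp) : Prop where
  q : m ∈ QQ
  xt : x * t * x⁻¹ = t * ι m
  cz : ∀ m ∈ QQ, x * ι m = ι m * x

theorem Tq.mul (a : Tq ι t x m) (b : Tq ι t y p) : Tq ι t (x * y) (m * p) :=
  ⟨mul_mem a.q b.q, by
    rw [show x * y * t * (x * y)⁻¹ = x * (y * t * y⁻¹) * x⁻¹ by group, b.xt, ← conj_mul, a.xt, cj_eq (a.cz _ b.q), mul_assoc, map_mul],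
    fun m h => (show Commute _ _ from a.cz m h).mul_left (b.cz m h)⟩

theorem Tq.ker (a : Tq ι t x m) (c : Ct ι t) (e : m = 1) : ∃ w j, O w ∧ Im ι t x (qq w j) :=
  (Hq.of (i := 0) (by rw [a.xt, e, qq_one rfl]) a.cz).ker c rfl rfl

theorem cjc (e : x * ι (p⁻¹ * m * p) = ι (p⁻¹ * m * p) * x) : ι p * x * (ι p)⁻¹ * ι m = ι m * (ι p * x * (ι p)⁻¹) := by
  simp only [map_mul, map_inv] at e
  calc _ = ι p * (x * ((ι p)⁻¹ * ι m * ι p)) * (ι p)⁻¹ := by group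
    _ = _ := by rw [e]; group

/-- the involutions moving `t` to `t b(1,u)` -/
structure G0 (ι : Sp →* G) (t x : G) (u : ℕ) : Prop extends Tq ι t x (bb 1 u) where
  o : O u
  xx : x * x = 1
  xc : ∀ m, ac m 1 = 1 → ac m u = u → x * ι m = ι m * x

theorem G0.cj (a : G0 ι t x u) (c : Ct ι t) (h : p ∈ P1) (e : ac p u = v) : G0 ι t (ι p * x * (ι p)⁻¹) v where
  q := e ▸ bb_QQ (a.o.cj h).1 (a.o.cj h).2
  xt := by
    rw [← e, ← qq_b, ← qq_cj h a.o, qq_b, ← c.cjt' (.of p), ← a.xt]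
    conv_lhs => rw [← c.cjt (.of p)]
    group
  cz := fun m q => cjc (a.cz _ (by simpa using QQ_cj (inv_mem h) q))
  o := e ▸ a.o.cj h
  xx := sqj a.xx _
  xc := fun m d f => cjc (a.xc _ (by rw [ac_mul, ac_mul, mem_P1.1 h, d, mem_P1.1 (inv_mem h)]) (by rw [ac_mul, ac_mul, e, f, ← e, ac_inv p a.o.1]))

theorem G0.tr (a : G0 ι t x u) (l : u < 8) : Tr ι t x (bb 1 u) :=
  ⟨fun m h => a.xc m (mem_EE'.1 h).1 ((h u l).trans (Nat.mod_eq_of_lt a.o.1)), a.xt⟩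

theorem G0.cτ (a : G0 ι t x u) (l : v < 64 := by decide) (p : fm 1 v = 0 := by decide) (q : fm u v = 0 := by decide) : Commute x (ι (τ v)) :=
  a.xc _ (by rw [ac_τ l (by decide), p]; simp) (by rw [ac_τ l a.o.1, q]; simp)

theorem g0_of (c : Ct ι t) (k : Gy ι t g 0) : G0 ι t g 2 :=
  ⟨⟨bb_QQ (by decide) (by decide), k.gt, fun m h => (closure_le ((centralizer {g}).comap ι)).2 (by
    rintro _ (rfl | rfl | rfl | rfl | rfl) _ rfl
    iterate 3 exact k.gf _ (mem_F4.2 (by simp only [ac_cd, cd_bb, cd_τ]; decide +kernel))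
    exacts [mul_inv_eq_iff_eq_mul.1 (by simpa using k.gx), k.gf _ (mem_F4.2 (by simp only [ac_cd, cd_bb]; decide +kernel))]) h _ rfl⟩,
    by decide, k.gg, fun m p q => k.gf m (mem_F4.2 ⟨p, q⟩)⟩

theorem tri (c : Ct ι t) (k : Gy ι t g 0) : ∃ g0 g1 g2, G0 ι t g0 2 ∧ G0 ι t g1 16 ∧ G0 ι t g2 18 ∧ ι (τ 2) * g1 * (ι (τ 2))⁻¹ = g2 ∧
    ι (τ 16) * g2 * (ι (τ 16))⁻¹ = g0 := by
  have a := g0_of c k
  have b := a.cj c (τ_P1 (v := 18) (by decide) (by decide)) (v := 16) (by rw [ac_tv] <;> decide)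
  refine ⟨_, _, _, a, b, b.cj c (τ_P1 (v := 2) (by decide) (by decide)) (by rw [ac_tv] <;> decide), rfl, ?_⟩
  conv_rhs => rw [← cj_eq (a.xc (τ 16 * τ 2 * τ 18) (by simp only [ac_cd, cd_mul, cd_τ]; decide +kernel)
    (by simp only [ac_cd, cd_mul, cd_τ]; decide +kernel)).symm]
  simp only [map_mul]
  group

theorem tq3 (a : G0 ι t g0 2) (b : G0 ι t g1 16) (d : G0 ι t g2 18) : Tq ι t (g0 * g1 * g2) (τ 1) :=
  (show bb 1 2 * bb 1 16 * bb 1 18 = τ 1 from cd_inj (by simp only [cd_mul, cd_bb, cd_τ]; decide +kernel)) ▸ (a.toTq.mul b.toTq).mul d.toTq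

theorem nA_of (c : Ct ι t) (h : m ∈ EE) (a : y * t * y⁻¹ = t * ι m) (b : ∀ k ∈ [1, 2, 4, 8, 16, 32], ∃ e ∈ EE, y * ι (ee k) * y⁻¹ = ι e) :
    y ∈ 𝐍(Tm ι t EE) := mem_normalizer_of_conj_mem fun x hx => by
  have z : EE ≤ (Tm ι t EE).comap ((MulAut.conj y).toMonoidHom.comp ι) := ee_gen fun k m =>
    let ⟨e, h, r⟩ := b k m; show y * ι (ee k) * y⁻¹ ∈ _ from r ▸ c.i_Tm.2 h
  obtain ⟨m, h', rfl | rfl⟩ := c.mem_Tm.1 hx
  · exact z h'
  · rw [← conj_mul, a]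
    exact mul_mem (c.ti_Tm.2 h) (z h')

theorem qq_EE (o : O w) (a : fm 2 w = 0) (b : fm 4 w = 0) : qq w j ∈ EE := by
  refine mem_EE'.2 ⟨mem_P1.1 (QQ_P1 (qq_QQ o j)), ?_, ?_⟩ <;>
    rw [qq, ac_mul, ac_a _ (by decide), show fm _ 1 = 0 by decide, zero_mul, Nat.xor_zero, ac_b1 o.1 o.2 (by decide)] <;> simp [a, b, show fm 2 1 = 0 by decide, show fm 4 1 = 0 by decide]

theorem qq_τ (o : O w) (l : v < 64) (n : 1 < v) (f : fm v 1 = 0) (e : τ v * qq w j = qq w j * τ v) : fm v w = 0 := by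
  have := mul_inv_eq_iff_eq_mul.2 e
  rw [qq_cj (τ_P1 l f) o, ac_tv l o.1] at this
  exact (by decide +kernel : ∀ v < 64, 1 < v → ∀ w < 64, tv v w / 2 = w / 2 → fm v w = 0) v l n w o.1
    (qq_inj (ac_tv l o.1 ▸ o.cj (τ_P1 l f)) o this).1

theorem cm_of (a : x * x = 1) (b : y * y = 1) (e : x * y * (x * y) = 1) : Commute x y := by
  rw [Commute, SemiconjBy, ← si e, mul_inv_rev, si a, si b]

theorem main (c : Ct ι t) (ai : AI ι t) (a : G0 ι t g0 2) (b : G0 ι t g1 16) (d : G0 ι t g2 18) (e2 : ι (τ 2) * g1 * (ι (τ 2))⁻¹ = g2)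
    (e16 : ι (τ 16) * g2 * (ι (τ 16))⁻¹ = g0) : K0 ι t ∧ ∃ y, Y4 ι t y := by
  have P : ∀ v, O v → τ v ∈ P1 := fun v o => τ_P1 o.1 o.2
  have T := tq3 a b d
  obtain ⟨p, hp, ep⟩ := ex_P1' (u := 4) (by decide) (by decide) (by decide)
  have a3 := a.cj c hp ep
  generalize ι p * g0 * (ι p)⁻¹ = g3 at a3
  have b' := b.cj c β_P1.1 β_P1.2.2
  have ββ : ι (bb 2 4) * ι (bb 2 4) = 1 := by rw [← map_mul, EE_sq (ee_val.2.2.2.2.2.2 ▸ ee_EE 32), map_one]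
  have τ2 : ι (τ 2) * ι (τ 2) = 1 := by rw [← map_mul, τ_sq, map_one]
  have βτ : ι (bb 2 4) * ι (τ 2) = ι (τ 2) * ι (bb 2 4) := by rw [← map_mul, ← map_mul, (τ_cm (by decide)).2 β_P1.2.1]
  have β0 := a.xc _ (mem_P1.1 β_P1.1) β_P1.2.1
  have β3 := a3.xc _ (mem_P1.1 β_P1.1) (by simp only [ac_cd, cd_bb]; decide +kernel)
  obtain ⟨w, j, o, f⟩ := ((b.toTq.mul b'.toTq).mul a3.toTq).ker c (cd_inj (by simp only [cd_mul, cd_bb, cd_one]; decide +kernel))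
  obtain ⟨s, hs⟩ : ∃ s, g1 * (ι (bb 2 4) * g1 * (ι (bb 2 4))⁻¹) * g3 = s := ⟨_, rfl⟩
  rw [hs] at f
  have ss : s * s = 1 := by rw [c.im_sq f, qq_sq o, map_one]
  have h1 : ι (bb 2 4) * g1 * (ι (bb 2 4))⁻¹ = g1 * s * g3 := by
    rw [← hs]; simp only [← mul_assoc, b.xx, one_mul]; rw [mul_assoc _ g3 g3, a3.xx, mul_one]
  have h2 : ι (bb 2 4) * g1 * (ι (bb 2 4))⁻¹ = g3 * s * g1 := by
    rw [← si b'.xx, h1]; simp only [mul_inv_rev, si a3.xx, si ss, si b.xx, mul_assoc]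
  -- the action on `β`
  have hq : τ 2 * qq w j * (τ 2)⁻¹ * qq w j = qq (2 * fm w 2) (fm w 2) := by
    obtain ⟨p, q⟩ := (by decide +kernel : ∀ w < 64, tv 2 w ^^^ w = 2 * fm w 2 ∧ fm (tv 2 w) w = fm w 2) w o.1
    rw [qq_cj (P 2 (by decide)) o, qq_mul (o.cj (P 2 (by decide))) o, ac_tv (by decide) o.1, p, q]
    exact qq_eq (by omega)
  have oq : O (2 * fm w 2) ∧ fm 2 (2 * fm w 2) = 0 ∧ fm 4 (2 * fm w 2) = 0 :=
    (by decide : ∀ i < 2, O (2 * i) ∧ fm 2 (2 * i) = 0 ∧ fm 4 (2 * i) = 0) _ (fm_lt w 2)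
  have rβ : g0 * g1 * g2 * ι (bb 2 4) * (g0 * g1 * g2)⁻¹ = ι (qq (2 * fm w 2) (fm w 2) * bb 2 4) := by
    have : ι (τ 2) * s * (ι (τ 2))⁻¹ * s = ι (qq (2 * fm w 2) (fm w 2)) := by
      have := c.im_cm (.of (τ 2)) f
      rwa [si ss, si (qq_sq o), hq] at this
    have g2β : ι (bb 2 4) * g2 * (ι (bb 2 4))⁻¹ = g2 * (ι (τ 2) * s * (ι (τ 2))⁻¹) * g3 := by
      rw [← e2, conj_mul, ← cj_eq (a3.cτ (v := 2)).eq.symm, conj_mul, ← h1]
      calc _ = ι (bb 2 4) * ι (τ 2) * g1 * (ι (bb 2 4) * ι (τ 2))⁻¹ := by group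
        _ = _ := by rw [βτ]; group
    have cq := (a.toTq.mul b.toTq).cz _ (qq_QQ oq.1 (fm w 2))
    calc _ = g0 * g1 * g2 * (ι (bb 2 4) * g2⁻¹ * (ι (bb 2 4))⁻¹) * (ι (bb 2 4) * g1⁻¹ * (ι (bb 2 4))⁻¹) * (ι (bb 2 4) * g0⁻¹) := by group
      _ = g0 * g1 * (g2 * g2) * (ι (τ 2) * s * (ι (τ 2))⁻¹) * (g3 * g3) * s * (g0 * g1)⁻¹ * ι (bb 2 4) := by
        rw [si a.xx, si b.xx, si d.xx, g2β, h2, ← β0, mul_inv_rev, si a.xx, si b.xx]; group
      _ = _ := by rw [d.xx, a3.xx, mul_one, mul_one, mul_assoc (g0 * g1), this, cj_eq cq, map_mul]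
  -- the action on `τ 2`
  have e2' : ι (τ 2) * g2 * (ι (τ 2))⁻¹ = g1 := by rw [← e2, si τ2]; simp only [← mul_assoc, τ2, one_mul]; rw [mul_assoc, τ2, mul_one]
  have rτ : g0 * g1 * g2 * ι (τ 2) * (g0 * g1 * g2)⁻¹ = g0 * (g1 * g2 * (g1 * g2)) * g0⁻¹ * ι (τ 2) := by
    calc _ = g0 * g1 * g2 * (ι (τ 2) * g2⁻¹ * (ι (τ 2))⁻¹) * (ι (τ 2) * g1⁻¹ * (ι (τ 2))⁻¹) * (ι (τ 2) * g0⁻¹) := by group
      _ = _ := by rw [si b.xx, si d.xx, e2, e2', ← (a.cτ (v := 2)).inv_left.eq]; group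
  obtain ⟨w', j', o', f'⟩ := ((b.toTq.mul d.toTq).mul (b.toTq.mul d.toTq)).ker c (QQ_sq (mul_mem b.q d.q))
  have zz : (g1 * g2 * (g1 * g2))⁻¹ = g1 * g2 * (g1 * g2) := si (by rw [c.im_sq f', qq_sq o', map_one])
  have z1 : g1 * g2 * (g1 * g2) = ι (qq w' j') := f'.resolve_right fun e => by
    have : g1 * (g1 * g2 * (g1 * g2)) * g1⁻¹ = g1 * g2 * (g1 * g2) := by
      conv_rhs => rw [← zz]
      simp only [mul_inv_rev, si b.xx, si d.xx, ← mul_assoc, b.xx, one_mul]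
    rw [e, ← conj_mul, b.xt, cj_eq (b.cz _ (qq_QQ o' _)), mul_left_inj, mul_eq_left, c.i1] at this
    exact absurd this (cd_ne (by rw [cd_bb, cd_one]; decide +kernel))
  have zE : qq w' j' ∈ EE := by
    refine qq_EE o' (qq_τ o' (by decide) (by decide) (by decide) (j := j') (c.inj ?_)) (qq_τ o' (by decide) (by decide) (by decide) (j := j') (c.inj ?_)) <;>
      rw [map_mul, map_mul, ← z1]
    · rw [← mul_inv_eq_iff_eq_mul, ← conj_mul, ← conj_mul, e2, e2']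
      conv_rhs => rw [← zz]
      simp only [mul_inv_rev, si b.xx, si d.xx]
    · exact ((b.cτ.mul_left d.cτ).mul_left (b.cτ.mul_left d.cτ)).symm
  have cτ : ∀ v < 64, fm 1 v = 0 → fm 2 v = 0 → fm 16 v = 0 → fm 18 v = 0 → Commute (g0 * g1 * g2) (ι (τ v)) := fun v l p q r r' =>
    ((a.cτ l p q).mul_left (b.cτ l p r)).mul_left (d.cτ l p r')
  have c4 := cτ 4 (by decide) (by decide) (by decide) (by decide) (by decide)
  have c32 := cτ 32 (by decide) (by decide) (by decide) (by decide) (by decide)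
  have n := nA_of c ((τ_EE (by decide)).2 (by decide)) T.xt (by
    simp only [List.forall_mem_cons, List.not_mem_nil, IsEmpty.forall_iff, implies_true, and_true]
    refine ⟨⟨_, ee_EE 1, cj_eq (T.cz _ (ee_val.2.1 ▸ τ_QQ))⟩, ⟨_, mul_mem zE (ee_EE 2), ?_⟩, ⟨_, ee_EE 4, cj_eq (ee_val.2.2.2.1 ▸ c4)⟩,
      ⟨_, ee_EE 8, cj_eq (T.cz _ (ee_val.2.2.2.2.1 ▸ a.q))⟩, ⟨_, ee_EE 16, cj_eq (T.cz _ (ee_val.2.2.2.2.2.1 ▸ a3.q))⟩,
      ⟨_, mul_mem (qq_EE oq.1 oq.2.1 oq.2.2 (j := fm w 2)) (ee_EE 32), ee_val.2.2.2.2.2.2 ▸ rβ⟩⟩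
    rw [ee_val.2.2.1, rτ, z1, cj_eq (a.cz _ (qq_QQ o' _)), map_mul])
  have bL : bb 2 4 ∈ AL := subset_closure (by simp)
  have f0 : fm w 2 = 0 := by
    obtain ⟨β, hb, r⟩ := ai _ n _ bL
    rw [rβ, c.ii] at r
    have := mul_mem (r ▸ hb) (inv_mem bL)
    rw [mul_inv_cancel_right] at this
    by_contra z
    rw [show fm w 2 = 1 by have := fm_lt w 2; omega, qq, pow_one] at this
    exact absurd (W.τA (by decide) ((mul_mem_cancel_left bA).1 this)) (by decide)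
  rw [f0, qq_one rfl, one_mul] at rβ
  have cβ : Commute (g0 * g1 * g2) (ι (bb 2 4)) := mul_inv_eq_iff_eq_mul.1 rβ
  have s0 : s = ι (qq w j) := f.resolve_right fun e => by
    have : ι (bb 2 4) * s * (ι (bb 2 4))⁻¹ = g3 * s * g3⁻¹ := by
      calc _ = ι (bb 2 4) * g1 * (ι (bb 2 4))⁻¹ * (ι (bb 2 4) * ι (bb 2 4) * g1 * (ι (bb 2 4) * ι (bb 2 4))⁻¹) *
            (ι (bb 2 4) * g3 * (ι (bb 2 4))⁻¹) := by rw [← hs]; group
        _ = _ := by rw [ββ, h2, cj_eq β3.symm, one_mul, inv_one, mul_one, mul_assoc _ g1 g1, b.xx, mul_one, si a3.xx]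
    rw [e, c.cjt' (.of _), ← conj_mul, a3.xt, cj_eq (a3.cz _ (qq_QQ o _)), mul_assoc t, mul_right_inj, ← map_mul, c.ii, qq_cj β_P1.1 o, ← qq_b,
      qq_mul (by decide) o] at this
    have := (qq_inj (o.cj β_P1.1) ((by decide : O 4).xor o) this).1
    rw [ac_bb (by decide) (by decide) o.1] at this
    exact (by decide +kernel : ∀ w < 64, fm w 2 = 0 → tv 2 (tv 4 (tv (2 ^^^ 4) w)) / 2 ≠ (4 ^^^ w) / 2) w o.1 f0 this
  constructor
  · intro x y xx yy px py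
    obtain ⟨l, hl, l2, l4⟩ := ex_P1 (u := 16) (v := 20) (by decide) (by decide) (by decide) (by decide)
    rw [if_neg (by decide)] at l4
    have x0 := b.cj c (inv_mem hl) (l2 ▸ ac_inv l (by decide))
    have y0 := b'.cj c (inv_mem hl) (l4 ▸ ac_inv l (by decide))
    have cm : Commute g1 (ι (bb 2 4) * g1 * (ι (bb 2 4))⁻¹) := by
      have : g1 * (ι (bb 2 4) * g1 * (ι (bb 2 4))⁻¹) = s * g3 := by rw [h1]; simp only [← mul_assoc, b.xx, one_mul]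
      exact cm_of b.xx b'.xx (this ▸ sq2 ss a3.xx (s0 ▸ (a3.cz _ (qq_QQ o j)).symm))
    have a' := x0.tr (by decide)
    have b' := y0.tr (by decide)
    obtain ⟨e, h, rfl⟩ := c.tr_uq x0.xx xx b1 a' px
    obtain ⟨f, l', rfl⟩ := c.tr_uq y0.xx yy (cd_ne (by rw [cd_bb, cd_one]; decide +kernel)) b' py
    exact ((cm.conj _).mul_right (a'.1 f l')).mul_left
      ((show Commute _ _ from (b'.1 e h).symm).mul_right (by rw [Commute, SemiconjBy, ← map_mul, ← map_mul, EE_cm h l']))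
  let H := (centralizer {g0 * g1 * g2}).comap ι
  have mk : ∀ {m}, Commute (g0 * g1 * g2) (ι m) → m ∈ H := fun e _ r => r ▸ e
  have m2 : τ 2 ∈ H := by
    rw [show τ 2 = bb 2 4 * (τ 4 * τ 32 * bb 2 4 * (τ 4 * τ 32)⁻¹) * ((τ 4 * τ 32)⁻¹ * bb 2 4 * (τ 4 * τ 32)) from
      cd_inj (by simp only [cd_mul, cd_inv, cd_bb, cd_τ]; decide +kernel)]
    have := mul_mem (mk c4) (mk c32)
    exact mul_mem (mul_mem (mk cβ) (mul_mem (mul_mem this (mk cβ)) (inv_mem this))) (mul_mem (mul_mem (inv_mem this) (mk cβ)) this)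
  have c12 : Commute g1 g2 := by
    rw [cj_eq (m2 _ rfl), eq_comm, mul_eq_right, mul_inv_eq_one, mul_eq_left] at rτ
    exact cm_of b.xx d.xx rτ
  have c10 : Commute g1 g0 := by simpa only [e16, cj_eq (b.cτ (v := 16)).eq.symm] using c12.conj (ι (τ 16))
  have c20 : Commute g2 g0 := by simpa only [e2, cj_eq (a.cτ (v := 2)).eq.symm] using c10.conj (ι (τ 2))
  have τ16 : ι (τ 16) * ι (τ 16) = 1 := by rw [← map_mul, τ_sq, map_one]
  have m16 : τ 16 ∈ H := mk (Commute.symm (mul_inv_eq_iff_eq_mul.1 (by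
    have : ι (τ 16) * g0 * (ι (τ 16))⁻¹ = g2 := by rw [← e16, si τ16]; simp only [← mul_assoc, τ16, one_mul]; rw [mul_assoc, τ16, mul_one]
    rw [← conj_mul, ← conj_mul, this, e16, cj_eq (b.cτ (v := 16)).eq.symm, ← c12.eq, mul_assoc, c20.eq, ← mul_assoc, c10.eq])))
  refine ⟨_, sq2 (sq2 a.xx b.xx c10.symm) d.xx (c20.symm.mul_left c12), T.xt, fun m h => gen_P1 (H := H) ?_ h _ rfl⟩
  simp only [List.forall_mem_cons, List.not_mem_nil, IsEmpty.forall_iff, implies_true, and_true]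
  refine ⟨mk (T.cz _ τ_QQ), m2, ?_, mk c4, ?_, m16, mk c32⟩
  · rw [show τ 3 = τ 2 * (τ 1 * bb 1 2) from cd_inj (by simp only [cd_mul, cd_bb, cd_τ]; decide +kernel)]
    exact mul_mem m2 (mk (T.cz _ (mul_mem τ_QQ a.q)))
  · rw [show τ 6 = τ 2 * τ 4 * bb 2 4 from cd_inj (by simp only [cd_mul, cd_bb, cd_τ]; decide +kernel)]
    exact mul_mem (mul_mem m2 (mk c4)) (mk cβ)

end A0
open A0

theorem Ct.a0 (c : Ct ι t) (k : Gy ι t g 0) : Dt t (t * ι (τ 1)) :=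
  let ⟨_, _, _, a, b, d, _⟩ := tri c k; ⟨_, (tq3 a b d).xt⟩

theorem Ct.a0' (c : Ct ι t) (k : Gy ι t g 0) (i : AI ι t) : K0 ι t ∧ ∃ y, Y4 ι t y :=
  let ⟨_, _, _, a, b, d, e, f⟩ := tri c k; main c i a b d e f

end CF.Ft
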