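import Cfsg.Agent.Ft.J1

/-! The case `α = 1`: the involutions moving `t` to `t b(1,u)`. -/

set_option autoImplicit false
set_option linter.unusedSectionVars false
set_option linter.unusedVariables false
set_option synthInstance.maxSize 4000
set_option maxRecDepth 100000

namespace CF.Ft

open Cfsg Subgroup CF.Loc U

attribute [local irreducible] ac cd el ee lv dd τ bb

variable {G : Type*} [Group G] [Finite G] {ι : Sp →* G} {t g x y z s : G} {m p : Sp} {u v w i j k : ℕ}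

namespace A1

/-- the elements of `Q` -/
def qq (w j : ℕ) : Sp := bb 1 w * τ 1 ^ j

/-- orthogonal to `e₁` -/
def O (w : ℕ) : Prop := w < 64 ∧ fm w 1 = 0

instance (w : ℕ) : Decidable (O w) := inferInstanceAs (Decidable (w < 64 ∧ fm w 1 = 0))

theorem O.xor (a : O u) (b : O v) : O (u ^^^ v) := ⟨xor_lt a.1 b.1, fm_xor1 a.1 b.1 a.2 b.2⟩
theorem O.cj (a : O u) (h : p ∈ P1) : O (ac p u) := ⟨ac_lt _ _, (P1_fm h a.1).trans a.2⟩
theorem O0 : O 0 := by decide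
theorem fm0 (w : ℕ) : fm 0 w = 0 := by simp [fm]
theorem fm_self (a : u < 64) : fm u u = 0 := (by decide +kernel : ∀ u < 64, fm u u = 0) u a
theorem fm_xor (a : u < 64) (b : v < 64) (c : w < 64) : fm (u ^^^ v) w % 2 = (fm u w + fm v w) % 2 := by
  rw [← ZMod.natCast_eq_natCast_iff', Nat.cast_add, fm_eq (xor_lt a b) c, fm_eq a c, fm_eq b c, vc_xor, add_dotProduct]
theorem qq_eq (h : i % 2 = j % 2) : qq w i = qq w j := by
  have e : τ 1 ^ 2 = 1 := by rw [sq, τ_sq]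
  rw [qq, qq, pow_eq_pow_mod i e, h, ← pow_eq_pow_mod j e]
theorem qq_QQ (a : O w) (j : ℕ) : qq w j ∈ QQ := mem_QQ'.2 ⟨w, a.1, a.2, j, rfl⟩
theorem QQ_qq (h : m ∈ QQ) : ∃ w j, O w ∧ m = qq w j := let ⟨w, a, b, j, e⟩ := mem_QQ'.1 h; ⟨w, j, ⟨a, b⟩, e⟩
theorem qq_mul (a : O u) (b : O v) : qq u i * qq v j = qq (u ^^^ v) (i + j + fm u v) := by
  rw [qq, qq, qq, mul_assoc, ← mul_assoc (τ 1 ^ i), ← ((show Commute _ _ from a_bb b.1 b.2).pow_right i).eq, ← mul_assoc, ← mul_assoc,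
    bb_add a.1 b.1 a.2 b.2, pow_add, pow_add]
  group
theorem qq_b (w : ℕ) : qq w 0 = bb 1 w := by simp [qq]
theorem qq_a (j : ℕ) : qq 0 j = τ 1 ^ j := by simp [qq, bb_zero.1]
theorem qq_one (h : j % 2 = 0) : qq 0 j = 1 := by rw [qq_eq (j := 0) h, qq_a, pow_zero]
theorem qq_add (a : O w) : qq w j * qq 0 k = qq w (j + k) := by rw [qq_mul a O0, fm_symm a.1 (by decide), fm0]; simp
theorem qq_sq (a : O w) : qq w j * qq w j = 1 := QQ_sq (qq_QQ a j)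
theorem qq_cj (h : p ∈ P1) (a : O w) : p * qq w j * p⁻¹ = qq (ac p w) j := by
  rw [qq, qq, ← conj_mul, bb_cj p (by decide) a.1, ← conj_pow, τ_cj p (by decide), mem_P1.1 h]
theorem qq_inj (a : O u) (b : O v) (e : qq u i = qq v j) : u / 2 = v / 2 ∧ i % 2 = j % 2 := by
  have := congrArg (ac · 8) e
  simp only [qq, ac_mul] at this
  rw [ac_b1 a.1 a.2 (ac_lt _ _), ac_b1 b.1 b.2 (ac_lt _ _), ac_a i (by decide), ac_a j (by decide)] at this
  exact (by decide +kernel : ∀ u < 64, fm u 1 = 0 → ∀ v < 64, fm v 1 = 0 → ∀ i < 2, ∀ j < 2,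
    (8 ^^^ fm 8 1 * i) ^^^ fm (8 ^^^ fm 8 1 * i) 1 * u ^^^ fm (8 ^^^ fm 8 1 * i) u =
    (8 ^^^ fm 8 1 * j) ^^^ fm (8 ^^^ fm 8 1 * j) 1 * v ^^^ fm (8 ^^^ fm 8 1 * j) v → u / 2 = v / 2 ∧ i = j) u a.1 a.2 v b.1 b.2 _
    (Nat.mod_lt _ two_pos) _ (Nat.mod_lt _ two_pos) this
theorem qq_half (a : O w) : qq w j = qq (w / 2 * 2) j := by
  rcases (by decide +kernel : ∀ w < 64, w / 2 * 2 = w ∨ w / 2 * 2 = w ^^^ 1) w a.1 with e | e <;> rw [e]
  rw [qq, qq, bb_one a.1 a.2]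
theorem a_P1 (h : p ∈ P1) (j : ℕ) : p * qq 0 j * p⁻¹ = qq 0 j := by rw [qq_cj h O0, ac_zero]

/-- `x` moves `t` to `t b(1,u) a ^ i` and acts on `Q` by the form `f(u, ·)` -/
structure Hq (ι : Sp →* G) (t x : G) (u i : ℕ) : Prop where
  o : O u
  xt : x * t * x⁻¹ = t * ι (qq u i)
  xq : ∀ w j, O w → x * ι (qq w j) * x⁻¹ = ι (qq w (j + fm u w))

theorem Hq.mul (a : Hq ι t x u i) (b : Hq ι t y v j) : Hq ι t (x * y) (u ^^^ v) (i + j) where
  o := a.o.xor b.o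
  xt := by
    rw [show x * y * t * (x * y)⁻¹ = x * (y * t * y⁻¹) * x⁻¹ by group, b.xt, ← conj_mul, a.xt, a.xq _ _ b.o, mul_assoc, ← map_mul,
      qq_mul a.o b.o, qq_eq (j := i + j) (by omega)]
  xq := fun w k o => by
    have := fm_xor a.o.1 b.o.1 o.1
    rw [show x * y * ι (qq w k) * (x * y)⁻¹ = x * (y * ι (qq w k) * y⁻¹) * x⁻¹ by group, b.xq _ _ o, a.xq _ _ o,
      qq_eq (j := k + fm (u ^^^ v) w) (by omega)]

theorem Hq.inv (a : Hq ι t x u i) : Hq ι t x⁻¹ u i where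
  o := a.o
  xt := by
    have : x * (t * ι (qq u i)) * x⁻¹ = t := by
      rw [← conj_mul, a.xt, a.xq _ _ a.o, fm_self a.o.1, add_zero, mul_assoc, ← map_mul, qq_sq a.o, map_one, mul_one]
    conv_lhs => rw [← this]
    group
  xq := fun w k o => by
    have := a.xq w (k + fm u w) o
    rw [qq_eq (i := k + fm u w + fm u w) (j := k) (by omega)] at this
    rw [← this]; group

theorem Hq.cj (a : Hq ι t x u i) (c : Ct ι t) (h : p ∈ P1) : Hq ι t (ι p * x * (ι p)⁻¹) (ac p u) i where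
  o := a.o.cj h
  xt := by
    rw [← qq_cj h a.o, ← c.cjt' (.of p), ← a.xt]
    conv_lhs => rw [← c.cjt (.of p)]
    group
  xq := fun w k o => by
    have e := qq_cj h (j := k) (o.cj (inv_mem h))
    have f := qq_cj h (j := k + fm (ac p u) w) (o.cj (inv_mem h))
    rw [ac_inv' p o.1] at e f
    rw [← e, ← f, ← c.cji (.of p), ← c.cji (.of p), ← ac_inv' p o.1, ac_fm p a.o.1 (ac_lt _ _), ac_inv p (ac_lt _ _), ← a.xq _ _ (o.cj (inv_mem h))]
    group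

theorem Hq.cz (a : Hq ι t x 0 i) (h : m ∈ QQ) : x * ι m = ι m * x := by
  obtain ⟨w, j, o, rfl⟩ := QQ_qq h
  simpa [fm0] using mul_inv_eq_iff_eq_mul.1 (a.xq w j o)

theorem Hq.ker (a : Hq ι t x u i) (c : Ct ι t) (e : u = 0) (f : i % 2 = 0) : ∃ w j, O w ∧ Im ι t x (qq w j) := by
  subst e
  obtain ⟨m, d⟩ := c.ex (x := x) (mul_inv_eq_iff_eq_mul.1 (by rw [a.xt, qq_one f, map_one, mul_one]))
  obtain ⟨w, j, o, rfl⟩ := QQ_qq (C_QQ fun e h => (c.cm_iff d (.of e)).1 (a.cz h))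
  exact ⟨w, j, o, d⟩

theorem Hq.of (xt : x * t * x⁻¹ = t * ι (qq 0 i)) (cz : ∀ m ∈ QQ, x * ι m = ι m * x) : Hq ι t x 0 i :=
  ⟨O0, xt, fun w j o => by rw [fm0, add_zero, cj_eq (cz _ (qq_QQ o j))]⟩

theorem Hq.im (c : Ct ι t) (o : O w) (d : Im ι t s (qq w j)) : Hq ι t s 0 0 :=
  .of (by rw [c.cjt d, qq_one rfl, map_one, mul_one]) fun m h => (c.cm_iff d (.of m)).2 (QQ_cm (qq_QQ o j) h)

theorem Hq.cs (a : Hq ι t x u i) (c : Ct ι t) (o : O w) (d : Im ι t s (qq w j)) :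
    (s = ι (qq w j) ∧ x * s * x⁻¹ = s * ι (qq 0 (fm u w))) ∨ x * s * x⁻¹ = s * ι (qq u (i + fm u w)) := by
  rcases d with rfl | rfl
  · exact .inl ⟨rfl, by rw [a.xq _ _ o, ← map_mul, qq_add o]⟩
  · refine .inr ?_
    rw [← conj_mul, a.xt, a.xq _ _ o, mul_assoc, mul_assoc, ← map_mul, ← map_mul, qq_mul a.o o, qq_mul o a.o, Nat.xor_comm w,
      fm_symm o.1 a.o.1, qq_eq (j := j + (i + fm u w) + fm u w) (by omega)]

/-- no factor `t` -/
theorem Hq.nt (a : Hq ι t x u i) (c : Ct ι t) (xx : x * x = 1) (l : 1 < u) (o : O w) (d : Im ι t s (qq w j))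
    (e : s * x * (s * x) = ι (qq 0 k)) : s = ι (qq w j) ∧ fm u w % 2 = k % 2 := by
  rw [show s * x * (s * x) = s * (x * s * x⁻¹) * (x * x) by group, xx, mul_one] at e
  have ss : s * s = 1 := by rw [c.im_sq d, qq_sq o, map_one]
  rcases a.cs c o d with ⟨r, f⟩ | f <;> rw [f, ← mul_assoc, ss, one_mul, c.ii] at e
  · exact ⟨r, (qq_inj O0 O0 e).2⟩
  · have := (qq_inj a.o O0 e).1
    omega

theorem Hq.qc (a : Hq ι t x u i) (o : O w) : ι (qq w j) * x * (ι (qq w j))⁻¹ = ι (qq 0 (fm u w)) * x := by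
  have := a.xq w j o
  rw [← qq_add o, QQ_cm (qq_QQ o _) (qq_QQ O0 _), map_mul] at this
  rw [← map_inv, si (qq_sq o), mul_assoc, mul_inv_eq_iff_eq_mul.1 this, ← mul_assoc, ← mul_assoc, ← map_mul, ← map_mul,
    QQ_cm (qq_QQ o _) (qq_QQ O0 _), mul_assoc (qq 0 _), qq_sq o, mul_one]

theorem Hq.fz (a : Hq ι t x u i) (c : Ct ι t) (o : O w) (e : x * ι (qq w j) = ι (qq w j) * x) : fm u w = 0 := by
  have := (qq_inj o o (c.inj ((cj_eq e).symm.trans (a.xq w j o)))).2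
  have := fm_lt u w
  omega

/-- the involutions moving `t` to `t b(1,u)` -/
structure H1 (ι : Sp →* G) (t x : G) (u : ℕ) : Prop extends Hq ι t x u 0 where
  xx : x * x = 1
  xc : ∀ m, ac m 1 = 1 → ac m u = u → x * ι m = ι m * x

theorem H1.cj (a : H1 ι t x u) (c : Ct ι t) (h : p ∈ P1) : H1 ι t (ι p * x * (ι p)⁻¹) (ac p u) where
  toHq := a.toHq.cj c h
  xx := sqj a.xx _
  xc := fun m d e => by
    have := a.xc (p⁻¹ * m * p) (by rw [ac_mul, ac_mul, mem_P1.1 h, d, mem_P1.1 (inv_mem h)]) (by rw [ac_mul, ac_mul, e, ac_inv p a.o.1])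
    simp only [map_mul, map_inv] at this
    calc _ = ι p * (x * ((ι p)⁻¹ * ι m * ι p)) * (ι p)⁻¹ := by group
      _ = _ := by rw [this]; group

theorem H1.cj' (a : H1 ι t x u) (c : Ct ι t) (h : p ∈ P1) (e : ac p u = v) : H1 ι t (ι p * x * (ι p)⁻¹) v := e ▸ a.cj c h

theorem H1.ex (a : H1 ι t x 2) (c : Ct ι t) (o : O u) (l : 1 < u) : ∃ y, H1 ι t y u :=
  let ⟨_, h, e⟩ := ex_P1' o.1 l o.2; ⟨_, a.cj' c h e⟩

theorem H1.tr (a : H1 ι t x u) (l : u < 8) : Tr ι t x (bb 1 u) :=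
  ⟨fun m h => a.xc m (mem_EE'.1 h).1 ((h u l).trans (Nat.mod_eq_of_lt a.o.1)), qq_b u ▸ a.xt⟩

theorem H1.one (a : H1 ι t x u) (b : H1 ι t y u) (c : Ct ι t) (l : 1 < u) : ∃ w j, O w ∧ x = ι (qq w j) * y := by
  obtain ⟨w, j, o, d⟩ := (a.toHq.mul b.toHq).ker c (Nat.xor_self u) rfl
  have e : x = x * y * y := by rw [mul_assoc, b.xx, mul_one]
  exact ⟨w, j, o, (b.toHq.nt c b.xx l o d (k := 0) (by rw [← e, a.xx, qq_one rfl, map_one])).1 ▸ e⟩

theorem H1.zeta (a : H1 ι t x 2) (b : H1 ι t y 16) (c : Ct ι t) : ∃ k, x * y * (x * y) = ι (qq 0 k) := by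
  obtain ⟨w, j, o, d⟩ := ((a.toHq.mul b.toHq).mul (a.toHq.mul b.toHq)).ker c (Nat.xor_self _) rfl
  have ss : (x * y * (x * y))⁻¹ = x * y * (x * y) := si (by rw [c.im_sq d, qq_sq o, map_one])
  have ex : x * (x * y * (x * y)) * x⁻¹ = x * y * (x * y) := by
    conv_rhs => rw [← ss]
    simp only [mul_inv_rev, si a.xx, si b.xx, ← mul_assoc, a.xx, one_mul]
  have ey : y * (x * y * (x * y)) = x * y * (x * y) * y := by
    conv_rhs => rw [← ss]
    simp only [mul_inv_rev, si a.xx, si b.xx, ← mul_assoc]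
  have cm : ∀ v < 64, ac (τ v) 1 = 1 → ac (τ v) 2 = 2 → ac (τ v) 16 = 16 → ac (qq w j) v = v := fun v l p q r =>
    (τ_cm l).1 ((c.cm_iff d (.of _)).1 (((show Commute _ _ from a.xc _ p q).mul_left (b.xc _ p r)).mul_left
      ((show Commute _ _ from a.xc _ p q).mul_left (b.xc _ p r))))
  rcases a.toHq.cs c o d with ⟨r, f⟩ | f
  · have p := a.toHq.fz c o (r ▸ mul_inv_eq_iff_eq_mul.1 ex)
    have q := b.toHq.fz c o (r ▸ ey)
    have p4 := cm 4 (by decide) (by rw [ac_tv] <;> decide) (by rw [ac_tv] <;> decide) (by rw [ac_tv] <;> decide)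
    have p5 := cm 32 (by decide) (by rw [ac_tv] <;> decide) (by rw [ac_tv] <;> decide) (by rw [ac_tv] <;> decide)
    rw [qq, ac_mul, ac_a _ (by decide), show fm _ 1 = 0 by decide, zero_mul, Nat.xor_zero, ac_b1 o.1 o.2 (by decide)] at p4 p5
    refine ⟨j, r.trans ?_⟩
    rw [qq_half o, (by decide +kernel : ∀ w < 64, fm w 1 = 0 → fm 2 w = 0 → fm 16 w = 0 → 4 ^^^ fm 4 1 * w ^^^ fm 4 w = 4 →
      32 ^^^ fm 32 1 * w ^^^ fm 32 w = 32 → w / 2 * 2 = 0) w o.1 o.2 p q p4 p5]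
  · rw [ex, left_eq_mul, c.i1, ← qq_one (j := 0) rfl] at f
    exact absurd (qq_inj (by decide) O0 f).1 (by decide)

theorem β_P1 : bb 2 4 ∈ P1 ∧ ac (bb 2 4) 2 = 2 ∧ ac (bb 2 4) 16 = 20 := by
  simp only [mem_P1, ac_cd, cd_bb]; decide +kernel

theorem H1.cm24 (a : H1 ι t x 2) (b : H1 ι t y 4) (c : Ct ι t) : x * y = y * x := by
  obtain ⟨z, d⟩ := a.ex c (u := 16) (by decide) (by decide)
  have d' := d.cj' c β_P1.1 β_P1.2.2
  obtain ⟨k, e⟩ := a.zeta d c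
  have e' : x * (ι (bb 2 4) * z * (ι (bb 2 4))⁻¹) * (x * (ι (bb 2 4) * z * (ι (bb 2 4))⁻¹)) = ι (qq 0 k) := by
    rw [← a_P1 β_P1.1, ← c.cji (.of _), ← e]
    conv_lhs => rw [← cj_eq (a.xc _ (mem_P1.1 β_P1.1) β_P1.2.1).symm]
    group
  generalize ι (bb 2 4) * z * (ι (bb 2 4))⁻¹ = z' at d' e'
  obtain ⟨w, j, o, f⟩ := ((d.toHq.mul d'.toHq).mul b.toHq).ker c (by decide) rfl
  have r : z * x * z = z' * x * z' := mul_left_cancel (a := x) (by simpa only [mul_assoc] using e.trans e'.symm)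
  have q : y * x * (y * x) = (z * z' * y)⁻¹ * (x * (z * z' * y) * x⁻¹) := by
    calc _ = y * z' * (z' * x * z') * z' * y * x := by
          simp only [mul_assoc, ← mul_assoc z' z', d'.xx, one_mul]
      _ = _ := by rw [← r]; simp only [mul_inv_rev, si a.xx, si b.xx, si d.xx, si d'.xx, mul_assoc]
  obtain ⟨z6, d6⟩ := a.ex c (u := 6) (by decide) (by decide)
  have t6 := (b.tr (by decide)).mul (a.tr (by decide)) (AL_le bA)
  rw [show bb 1 4 * bb 1 2 = bb 1 6 from cd_inj (by simp only [cd_mul, cd_bb]; decide +kernel)] at t6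
  have t6' := d6.tr (by decide)
  obtain ⟨e, h, l | l⟩ := c.tr_A (t6'.2.trans t6.2.symm) t6'.1 t6.1
  · have : y * x * (y * x) = 1 := l ▸ sq2 d6.xx (by rw [← map_mul, EE_sq h, map_one]) (t6'.1 e h)
    rw [← si this, mul_inv_rev, si a.xx, si b.xx]
  · have : y * x * (y * x) = ι (qq 6 0) := by
      rw [l, show z6 * (t * ι e) * (z6 * (t * ι e)) = z6 * t * z6⁻¹ * (z6 * ι e * z6⁻¹) * (z6 * z6) * (t * ι e) by group, d6.xx, d6.xt,
        cj_eq (t6'.1 e h), mul_one, mul_assoc, mul_assoc, c.itx, ← map_mul, EE_sq h, map_one, mul_one, c.it, c.ttx]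
    rcases a.toHq.cs c o f with ⟨-, f⟩ | f <;> rw [q, f, inv_mul_cancel_left, c.ii] at this <;>
      exact absurd (qq_inj (by decide) (by decide) this).1 (by decide)

theorem h1_of (c : Ct ι t) (k : Gy ι t g 1) : H1 ι t (g * ι (τ 2)) 2 := by
  have f2 : τ 2 ∈ Fx 4 := τ_F4 (by decide) (by decide) (by decide)
  have xc : ∀ m, ac m 1 = 1 → ac m 2 = 2 → g * ι (τ 2) * ι m = ι m * (g * ι (τ 2)) := fun m p q =>
    ((show Commute _ _ from k.gf m (mem_F4.2 ⟨p, q⟩)).mul_left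
      (show Commute _ _ from by rw [Commute, SemiconjBy, ← map_mul, ← map_mul, (τ_cm (by decide)).2 q])).eq
  have x0 : ∀ w j, O w → fm 2 w = 0 → g * ι (τ 2) * ι (qq w j) * (g * ι (τ 2))⁻¹ = ι (qq w j) := fun w j o f =>
    cj_eq (xc _ (mem_P1.1 (QQ_P1 (qq_QQ o j))) (by
      rw [qq, ac_mul, ac_a _ (by decide), show fm 2 1 = 0 by decide, zero_mul, Nat.xor_zero, ac_b1 o.1 o.2 (by decide), f]; simp [fm]))
  refine ⟨⟨by decide, ?_, fun w j o => ?_⟩, sq2 k.gg (by rw [← map_mul, τ_sq, map_one]) (k.gf _ f2), xc⟩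
  · rw [show g * ι (τ 2) * t * (g * ι (τ 2))⁻¹ = g * (ι (τ 2) * t * (ι (τ 2))⁻¹) * g⁻¹ by group, c.tcj, k.gt, qq_b]
  rcases Nat.le_one_iff_eq_zero_or_eq_one.1 (Nat.lt_succ_iff.1 (fm_lt 2 w)) with f | f
  · rw [x0 w j o f, f, add_zero]
  have o' : O (16 ^^^ w) := (by decide : O 16).xor o
  have x1 : g * ι (τ 2) * ι (qq 16 0) * (g * ι (τ 2))⁻¹ = ι (qq 16 1) := by
    rw [show g * ι (τ 2) * ι (qq 16 0) * (g * ι (τ 2))⁻¹ = g * (ι (τ 2) * ι (qq 16 0) * (ι (τ 2))⁻¹) * g⁻¹ by group, c.cji (.of _),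
      show τ 2 * qq 16 0 * (τ 2)⁻¹ = bb 1 16 * (bb 1 2 * τ 1) from cd_inj (by simp only [qq_b, cd_mul, cd_inv, cd_bb, cd_τ]; decide +kernel),
      map_mul, ← conj_mul, k.gx, cj_eq (k.gf _ (mul_mem (EE_F4 (AL_le bA)) (τ_F4 (by decide) (by decide) (by decide)))), ← map_mul, pow_one,
      mul_assoc, ← mul_assoc (bb 1 2), EE_sq (AL_le bA), one_mul, qq, pow_one]
  have e : ∀ i, qq 16 i * qq (16 ^^^ w) (j + fm 16 (16 ^^^ w)) = qq w (j + i) := fun i => by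
    rw [qq_mul (by decide) o', ← Nat.xor_assoc, Nat.xor_self, Nat.zero_xor]
    exact qq_eq (by omega)
  rw [f, ← e, ← add_zero j, ← e, map_mul, map_mul, ← conj_mul, x1, x0 _ _ o' (by
    have := fm_xor (u := 16) (v := w) (w := 2) (by decide) o.1 (by decide)
    rw [fm_symm o.1 (by decide), f, show fm 16 2 = 1 by decide] at this
    have := fm_lt (16 ^^^ w) 2
    rw [fm_symm (by decide) o'.1]
    omega), add_zero]

end A1
open A1

theorem Ct.n1g (c : Ct ι t) (k : Gy ι t g 1) : N1 ι t := c.n1_of' k.gt (by simpa using k.gx) (k.gf _ (EE_F4 (AL_le bA)))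

theorem Ct.a1 (c : Ct ι t) (k : Gy ι t g 1) : K0 ι t := fun x y xx yy p q => by
  have a := h1_of c k
  obtain ⟨z, b⟩ := a.ex c (u := 4) (by decide) (by decide)
  have a' := a.tr (by decide)
  have b' := b.tr (by decide)
  obtain ⟨e, h, rfl⟩ := c.tr_uq a.xx xx b1 a' p
  obtain ⟨f, l, rfl⟩ := c.tr_uq b.xx yy (cd_ne (by rw [cd_bb, cd_one]; decide +kernel)) b' q
  exact ((show Commute _ _ from a.cm24 b c).mul_right (a'.1 f l)).mul_left
    ((show Commute _ _ from (b'.1 e h).symm).mul_right (by rw [Commute, SemiconjBy, ← map_mul, ← map_mul, EE_cm h l]))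

end CF.Ft
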