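import Cfsg.Agent.Ft.A1
import Cfsg.Agent.Ft.F1

/-! The case `α = 1`: the involution moving `t` to `t a`. -/

set_option autoImplicit false
set_option linter.unusedSectionVars false
set_option linter.unusedVariables false
set_option synthInstance.maxSize 4000
set_option maxRecDepth 100000

namespace CF.Ft

open Cfsg Subgroup CF.Loc U A1

attribute [local irreducible] ac cd el ee lv dd τ bb

variable {G : Type*} [Group G] [Finite G] {ι : Sp →* G} {t g x y z h s : G} {m p : Sp} {u v w i j k : ℕ}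

namespace A1

theorem H1.sqa (a : H1 ι t x u) (b : H1 ι t y v) (c : Ct ι t) (l : 1 < u ∧ 1 < v ∧ 1 < u ^^^ v) :
    ∃ k, x * y * (x * y) = ι (qq 0 k) := by
  obtain ⟨p, h, e, f⟩ := ex_P1 a.o.1 b.o.1 l ⟨a.o.2, b.o.2⟩
  have a' := a.cj' c (inv_mem h) (e ▸ ac_inv p (by decide))
  have : ∃ k, ι p⁻¹ * x * (ι p⁻¹)⁻¹ * (ι p⁻¹ * y * (ι p⁻¹)⁻¹) * (ι p⁻¹ * x * (ι p⁻¹)⁻¹ * (ι p⁻¹ * y * (ι p⁻¹)⁻¹)) = ι (qq 0 k) := by
    split_ifs at f
    · exact a'.zeta (b.cj' c (inv_mem h) (f ▸ ac_inv p (by decide))) c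
    · have b' := b.cj' c (inv_mem h) (f ▸ ac_inv p (by decide))
      exact ⟨0, by rw [sq2 a'.xx b'.xx (a'.cm24 b' c), qq_one rfl, map_one]⟩
  obtain ⟨k, r⟩ := this
  refine ⟨k, ?_⟩
  rw [← a_P1 h, ← c.cji (.of p), ← r, map_inv]
  group

theorem H1.two (a : H1 ι t x u) (b : H1 ι t y v) (d : H1 ι t z (u ^^^ v)) (c : Ct ι t) (l : 1 < u ∧ 1 < v ∧ 1 < u ^^^ v) :
    ∃ w j, O w ∧ x * y = ι (qq w j) * z := by
  obtain ⟨w, j, o, r⟩ := ((a.toHq.mul b.toHq).mul d.toHq).ker c (Nat.xor_self _) rfl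
  obtain ⟨k, q⟩ := a.sqa b c l
  have e : x * y = x * y * z * z := by rw [mul_assoc, d.xx, mul_one]
  exact ⟨w, j, o, (d.toHq.nt c d.xx l.2.2 o r (k := k) (by rw [← e, q])).1 ▸ e⟩

theorem nP1 (c : Ct ι t) (ya : y * ι (τ 1) = ι (τ 1) * y) (yt : y * t * y⁻¹ = t * ι (τ 1)) (h : p ∈ P1) :
    ∃ m ∈ P1, Im ι t (y * ι p * y⁻¹) m := by
  have pa : ι p * ι (τ 1) = ι (τ 1) * ι p := by rw [← map_mul, ← map_mul, (τ_cm (by decide)).2 (mem_P1.1 h)]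
  have e : y * (t * ι (τ 1)) * y⁻¹ = t := by rw [← conj_mul, yt, cj_eq ya, mul_assoc, ← map_mul, τ_sq, map_one, mul_one]
  obtain ⟨m, d⟩ := c.ex (x := y * ι p * y⁻¹) (by
    rw [← e, conj_mul, conj_mul, ((show Commute _ _ from c.it p).mul_right pa).eq])
  refine ⟨m, mem_P1.2 ((τ_cm (by decide)).1 ((c.cm_iff d (.of _)).1 ?_)), d⟩
  rw [← cj_eq ya, conj_mul, conj_mul, pa]

theorem ex_y (c : Ct ι t) (d : Dt t (t * ι (τ 1))) : ∃ y, Hq ι t y 0 1 := by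
  obtain ⟨y, n, yt⟩ := c.ny (fun m h => ((τ_cm (by decide)).2 (mem_SS.1 h).1).symm) d
  obtain ⟨ya, yb, -⟩ := c.nT n
  have ph : ∀ w, O w ∧ 1 < w → ∃ v, O v ∧ ∀ j, y * ι (qq w j) * y⁻¹ = ι (qq v j) := fun w ⟨o, l⟩ => by
    obtain ⟨p, h, rfl⟩ := ex_P1' o.1 l o.2
    obtain ⟨m, h', r⟩ := nP1 c ya yt h
    refine ⟨_, (by decide : O 2).cj h', fun j => ?_⟩
    rw [← qq_cj h (by decide), ← qq_cj h' (by decide), ← c.cji r, ← c.cji (.of p)]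
    conv_rhs => rw [qq, map_mul, map_pow, ← cj_eq (((show Commute _ _ from yb).mul_right ((show Commute _ _ from ya).pow_right j)).eq),
      ← map_pow, ← map_mul, ← qq]
    group
  choose! φ o e using ph
  have f : ∀ u v, O u ∧ O v ∧ 1 < u ∧ 1 < v ∧ 1 < u ^^^ v → fm (φ u) (φ v) = fm u v := fun u v ⟨a, b, l, l', l''⟩ => by
    have := e _ ⟨a.xor b, l''⟩ (0 + 0 + fm u v)
    rw [← qq_mul a b, map_mul, ← conj_mul, e _ ⟨a, l⟩, e _ ⟨b, l'⟩, ← map_mul, qq_mul (o _ ⟨a, l⟩) (o _ ⟨b, l'⟩), c.ii] at this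
    have := (qq_inj ((o _ ⟨a, l⟩).xor (o _ ⟨b, l'⟩)) (o _ ⟨a.xor b, l''⟩) this).2
    have := fm_lt u v
    have := fm_lt (φ u) (φ v)
    omega
  have o2 := o 2 (by decide)
  have o4 := o 4 (by decide)
  have o16 := o 16 (by decide)
  have o32 := o 32 (by decide)
  obtain ⟨l, h, q⟩ := ex_lev ⟨o2.1, o4.1, o16.1, o32.1⟩ ⟨o2.2, o4.2, o16.2, o32.2⟩ (by
    simp (disch := decide) only [f]; decide)
  have r : ∀ w ∈ [2, 4, 16, 32], ι l⁻¹ * y * ι (bb 1 w) = ι (bb 1 w) * (ι l⁻¹ * y) := fun w m => by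
    have ow : O w ∧ 1 < w := by clear * - m; revert w; decide
    have : φ w = ac l w := by simp only [List.mem_cons, List.not_mem_nil, or_false] at m; rcases m with rfl | rfl | rfl | rfl <;> simp only [q]
    rw [← mul_inv_eq_iff_eq_mul, show ι l⁻¹ * y * ι (bb 1 w) * (ι l⁻¹ * y)⁻¹ = ι l⁻¹ * (y * ι (bb 1 w) * y⁻¹) * (ι l⁻¹)⁻¹ by group, ← qq_b,
      e w ow, c.cji (.of _), qq_cj (inv_mem h) (o w ow), this, ac_inv l ow.1.1]
  refine ⟨ι l⁻¹ * y, .of ?_ fun m hm => ((closure_le ((centralizer {ι l⁻¹ * y}).comap ι)).2 ?_ hm _ rfl)⟩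
  · rw [show ι l⁻¹ * y * t * (ι l⁻¹ * y)⁻¹ = ι l⁻¹ * (y * t * y⁻¹) * (ι l⁻¹)⁻¹ by group, yt, c.cjt' (.of _), ← a_P1 (inv_mem h), qq_a, pow_one]
  · rintro _ (rfl | rfl | rfl | rfl | rfl) _ rfl
    · rw [mul_assoc, ya, ← mul_assoc, ← map_mul, (τ_cm (by decide)).2 (mem_P1.1 (inv_mem h)), map_mul, mul_assoc]
    all_goals exact r _ (by simp)

theorem Hq.cjp (a : Hq ι t y 0 1) (c : Ct ι t) (l : C3 ι t) (h : p ∈ P1) (pp : p * p = 1) :
    ∃ w j, O w ∧ y * ι p * y⁻¹ = ι (p * qq w j) := by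
  obtain ⟨m, -, d⟩ := nP1 c (a.cz τ_QQ) (by rw [a.xt, qq_a, pow_one]) h
  have mm : m * m = 1 := c.i1.1 (by rw [← c.im_sq d, conj_mul, ← map_mul, pp]; simp)
  obtain ⟨w, j, o, r⟩ := QQ_qq (C_QQ (g := p⁻¹ * m) fun e q => by
    have := c.cji d e
    rw [← cj_eq (a.cz q), conj_mul, show y * (ι p * ι e) * y⁻¹ * (y * ι p * y⁻¹)⁻¹ = y * (ι p * ι e * (ι p)⁻¹) * y⁻¹ by group, c.cji (.of p),
      cj_eq (a.cz (QQ_cj h q)), c.ii] at this
    rw [mul_assoc, mul_inv_eq_iff_eq_mul.1 this.symm]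
    group)
  refine ⟨w, j, o, ?_⟩
  rw [← r, mul_inv_cancel_left]
  exact d.resolve_right fun e => c.nD p (Dt.cj_iff.1 (e ▸ l m mm))

theorem Hq.qc2 (a : Hq ι t x u i) (c : Ct ι t) (h : p ∈ P1) (o : O v) (o' : O w) :
    ι (p * qq v k) * (ι (qq w j) * x) * (ι (p * qq v k))⁻¹ = ι (qq (ac p w) (j + fm u v)) * (ι p * x * (ι p)⁻¹) := by
  rw [map_mul, show ι p * ι (qq v k) * (ι (qq w j) * x) * (ι p * ι (qq v k))⁻¹ = ι p * (ι (qq v k) * ι (qq w j) *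
      (ι (qq v k))⁻¹ * (ι (qq v k) * x * (ι (qq v k))⁻¹)) * (ι p)⁻¹ by group, c.cji (.of _), cj_eq (QQ_cm (qq_QQ o _) (qq_QQ o' _)),
    a.qc o, ← mul_assoc (ι (qq w j)), ← map_mul, qq_add o', ← conj_mul, c.cji (.of _), qq_cj h o']

theorem Hq.hy (a : Hq ι t y 0 1) (b : H1 ι t h 2) (c : Ct ι t) (l : C3 ι t) :
    ∃ y i, Hq ι t y 0 1 ∧ y * h * y⁻¹ = ι (qq 0 i) * h := by
  obtain ⟨w, j, o, d⟩ := (((a.mul b.toHq).mul a.inv).mul b.toHq).ker c (by decide) rfl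
  have e : y * h * y⁻¹ = y * h * y⁻¹ * h * h := by rw [mul_assoc _ h h, b.xx, mul_one]
  obtain ⟨r, f⟩ := b.toHq.nt c b.xx (by decide) o d (k := 0) (by rw [← e, sqj b.xx, qq_one rfl, map_one])
  rw [r] at e
  have z : ∀ v < 64, fm v 1 = 0 → fm 2 v = 0 → tv v w / 2 = w / 2 := fun v lv p q => by
    have hv := τ_P1 lv p
    obtain ⟨w', j', o', s⟩ := a.cjp c l hv (τ_sq v)
    have cm := b.xc _ (mem_P1.1 hv) (by rw [ac_τ lv (by decide), q]; simp)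
    have : y * ι (τ v) * y⁻¹ * (y * h * y⁻¹) * (y * ι (τ v) * y⁻¹)⁻¹ = y * h * y⁻¹ := by
      conv_rhs => rw [← cj_eq cm.symm]
      group
    rw [s, e, b.toHq.qc2 c hv o' o, cj_eq cm.symm, mul_left_inj, c.ii] at this
    rw [← ac_tv lv o.1]
    exact (qq_inj (o.cj hv) o this).1
  rw [qq_half o] at e
  rcases (by decide +kernel : ∀ w < 64, fm w 1 = 0 → fm 2 w % 2 = 0 % 2 → tv 4 w / 2 = w / 2 → tv 32 w / 2 = w / 2 →
    w / 2 * 2 = 0 ∨ w / 2 * 2 = 2) w o.1 o.2 f (z 4 (by decide) (by decide) (by decide)) (z 32 (by decide) (by decide) (by decide)) with q | q <;>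
    rw [q] at e
  · exact ⟨y, j, a, e⟩
  refine ⟨y * t, j, a.mul (.im c O0 (j := 0) ((qq_one (j := 0) rfl).symm ▸ .tt)), ?_⟩
  have : t * h * t⁻¹ = ι (qq 2 0) * h := by
    rw [c.ti, mul_assoc, mul_inv_eq_iff_eq_mul.1 b.xt, ← mul_assoc, c.ttx]
  rw [show y * t * h * (y * t)⁻¹ = y * (t * h * t⁻¹) * y⁻¹ by group, this, ← conj_mul, e, cj_eq (a.cz (qq_QQ (by decide) _)), ← mul_assoc,
    ← map_mul, qq_mul (by decide) (by decide)]
  simp [show fm 2 2 = 0 by decide]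

theorem Hq.hp (a : Hq ι t y 0 1) (b : H1 ι t h 2) (c : Ct ι t) (l : C3 ι t) (e : y * h * y⁻¹ = ι (qq 0 i) * h) (hp : p ∈ P1) (pp : p * p = 1)
    (f : ac p 2 = u) : ∃ x i, H1 ι t x u ∧ y * x * y⁻¹ = ι (qq 0 i) * x := by
  obtain ⟨w, j, o, s⟩ := a.cjp c l hp pp
  refine ⟨_, i + fm 2 w, b.cj' c hp f, ?_⟩
  rw [show y * (ι p * h * (ι p)⁻¹) * y⁻¹ = y * ι p * y⁻¹ * (y * h * y⁻¹) * (y * ι p * y⁻¹)⁻¹ by group, s, e, b.toHq.qc2 c hp o O0, ac_zero]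

theorem ex_y4 (b : H1 ι t h 2) (c : Ct ι t) (l : C3 ι t) : ∃ y, Hq ι t y 0 1 ∧ ∀ u ∈ [2, 4, 16, 32], ∃ x, H1 ι t x u ∧ y * x = x * y := by
  obtain ⟨y, a⟩ := ex_y c (l _ (τ_sq 1))
  obtain ⟨y, i, a, e⟩ := a.hy b c l
  have : ∀ u ∈ [2, 4, 16, 32], ∃ x i, H1 ι t x u ∧ y * x * y⁻¹ = ι (qq 0 i) * x := by
    simp only [List.forall_mem_cons, List.not_mem_nil, IsEmpty.forall_iff, implies_true, and_true]
    refine ⟨⟨h, i, b, e⟩, a.hp b c l e (p := bb 6 48) ?_ (cd_inj ?_) ?_, a.hp b c l e (p := τ 18) ?_ (τ_sq _) ?_,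
      a.hp b c l e (p := bb 20 34) ?_ (cd_inj ?_) ?_⟩ <;> simp only [mem_P1, ac_cd, cd_mul, cd_one, cd_bb, cd_τ] <;> decide +kernel
  choose! x i r s using this
  obtain ⟨w, o, f⟩ : ∃ w, O w ∧ ∀ u ∈ [2, 4, 16, 32], fm u w = i u % 2 := by
    obtain ⟨w, -, o, f⟩ := (by decide +kernel : ∀ a < 2, ∀ b < 2, ∀ c < 2, ∀ d < 2, ∃ w < 64, O w ∧ fm 2 w = a ∧ fm 4 w = b ∧ fm 16 w = c ∧
      fm 32 w = d) _ (Nat.mod_lt (i 2) two_pos) _ (Nat.mod_lt (i 4) two_pos) _ (Nat.mod_lt (i 16) two_pos) _ (Nat.mod_lt (i 32) two_pos)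
    exact ⟨w, o, by simpa using f⟩
  refine ⟨ι (qq w 0) * y, (Hq.im c o (.of _)).mul a, fun u m => ⟨x u, r u m, mul_inv_eq_iff_eq_mul.1 ?_⟩⟩
  rw [show ι (qq w 0) * y * x u * (ι (qq w 0) * y)⁻¹ = ι (qq w 0) * (y * x u * y⁻¹) * (ι (qq w 0))⁻¹ by group, s u m, ← conj_mul,
    (r u m).toHq.qc o, c.cji (.of _), cj_eq (QQ_cm (qq_QQ o _) (qq_QQ O0 _)), ← mul_assoc, ← map_mul, qq_add O0, qq_one (by rw [f u m]; omega),
    map_one, one_mul]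

theorem Hq.ep (a : Hq ι t y 0 1) (c : Ct ι t) (l : C3 ι t) (b : ∀ u ∈ [2, 4, 16, 32], ∃ x, H1 ι t x u ∧ y * x = x * y) (hp : p ∈ P1)
    (pp : p * p = 1) (f : ∀ u ∈ [2, 4, 16, 32], ac p u = u ∨ ∃ v ∈ [2, 4, 16, 32], v ≠ u ∧ ac p u = u ^^^ v) :
    ∃ k, y * ι p * y⁻¹ = ι (p * qq 0 k) := by
  obtain ⟨w, j, o, s⟩ := a.cjp c l hp pp
  have z : ∀ u ∈ [2, 4, 16, 32], fm u w = 0 := fun u m => by
    obtain ⟨x, d, e⟩ := b u m
    have : y * (ι p * x * (ι p)⁻¹) = ι p * x * (ι p)⁻¹ * y := by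
      obtain q | ⟨v, m', n, q⟩ := f u m
      · obtain ⟨w, j, o, r⟩ := (d.cj' c hp q).one d c (by clear * - m; revert u; decide)
        exact r ▸ (show Commute _ _ from a.cz (qq_QQ o j)).mul_right e
      · obtain ⟨x', d', e'⟩ := b v m'
        obtain ⟨w, j, o, r⟩ := d.two d' (d.cj' c hp q) c (by clear * - m m' n; revert u v; decide)
        exact eq_inv_mul_iff_mul_eq.2 r.symm ▸ (show Commute _ _ from a.cz (qq_QQ o j)).inv_right.mul_right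
          ((show Commute _ _ from e).mul_right e')
    refine d.toHq.fz c o (j := j) (mul_inv_eq_iff_eq_mul.1 ?_).symm
    have := cj_eq this
    rw [show y * (ι p * x * (ι p)⁻¹) * y⁻¹ = y * ι p * y⁻¹ * (y * x * y⁻¹) * (y * ι p * y⁻¹)⁻¹ by group, s, cj_eq e, map_mul] at this
    calc _ = (ι p)⁻¹ * (ι p * ι (qq w j) * x * (ι p * ι (qq w j))⁻¹) * ι p := by group
      _ = _ := by rw [this]; group
  refine ⟨j, ?_⟩
  rw [s, qq_half o, (by decide +kernel : ∀ w < 64, fm w 1 = 0 → (∀ u ∈ [2, 4, 16, 32], fm u w = 0) → w / 2 * 2 = 0) w o.1 o.2 z]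

theorem ep_mul (a : y * ι p * y⁻¹ = ι (p * qq 0 i)) (b : y * ι m * y⁻¹ = ι (m * qq 0 j)) (h : m ∈ P1) :
    y * ι (p * m) * y⁻¹ = ι (p * m * qq 0 (i + j)) := by
  rw [map_mul, ← conj_mul, a, b, ← map_mul, ← qq_add O0, mul_assoc, ← mul_assoc _ m, ← mul_inv_eq_iff_eq_mul.1 (a_P1 h i)]
  simp only [mul_assoc]

theorem ep_braid (c : Ct ι t) (a : y * ι p * y⁻¹ = ι (p * qq 0 i)) (b : y * ι m * y⁻¹ = ι (m * qq 0 j)) (h : p ∈ P1) (h' : m ∈ P1)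
    (e : p * m * (p * m) * (p * m) = 1) : i % 2 = j % 2 := by
  have r := ep_mul a b h'
  have := ep_mul (ep_mul r r (mul_mem h h')) r (mul_mem h h')
  rw [e, map_one, mul_one, mul_inv_cancel, one_mul, eq_comm, c.i1, ← qq_one (j := 0) rfl] at this
  have := (qq_inj O0 O0 this).2
  omega

theorem ep_cm (a : y * ι p * y⁻¹ = ι (p * qq 0 i)) (e : i % 2 = 0) : p ∈ (centralizer {y}).comap ι := by
  rintro _ rfl
  rw [qq_one e, mul_one] at a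
  exact mul_inv_eq_iff_eq_mul.1 a

end A1

theorem Ct.a2 (c : Ct ι t) (k : Gy ι t g 1) (k0 : K0 ι t) (l : C3 ι t) (i : AI ι t) : ∃ y, Y4 ι t y := by
  obtain ⟨y, a, b⟩ := ex_y4 (h1_of c k) c l
  have P : ∀ v ∈ [2, 4, 6, 16, 32], τ v ∈ P1 := fun v m => τ_P1 (by clear * - m; revert v; decide) (by clear * - m; revert v; decide)
  have e : ∀ v ∈ [2, 4, 16, 32], ∃ k, y * ι (τ v) * y⁻¹ = ι (τ v * qq 0 k) := fun v m =>
    a.ep c l b (P v (by clear * - m; revert v; decide)) (τ_sq v) (by simp only [ac_cd, cd_τ]; clear * - m; revert v; decide +kernel)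
  obtain ⟨i2, e2⟩ := e 2 (by simp)
  obtain ⟨i4, e4⟩ := e 4 (by simp)
  obtain ⟨i16, e16⟩ := e 16 (by simp)
  obtain ⟨i32, e32⟩ := e 32 (by simp)
  obtain ⟨j, eb⟩ := a.ep c l b β_P1.1 (cd_inj (by simp only [cd_mul, cd_bb, cd_one]; decide +kernel)) (by simp only [ac_cd, cd_bb]; decide +kernel)
  have e6 := ep_mul (ep_mul e2 e4 (P 4 (by simp))) eb β_P1.1
  rw [show τ 2 * τ 4 * bb 2 4 = τ 6 from cd_inj (by simp only [cd_mul, cd_bb, cd_τ]; decide +kernel)] at e6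
  have r1 := ep_braid c e2 e16 (P 2 (by simp)) (P 16 (by simp)) (cd_inj (by simp only [cd_mul, cd_one, cd_τ]; decide +kernel))
  have r2 := ep_braid c e4 e32 (P 4 (by simp)) (P 32 (by simp)) (cd_inj (by simp only [cd_mul, cd_one, cd_τ]; decide +kernel))
  have r3 := ep_braid c e6 e16 (P 6 (by simp)) (P 16 (by simp)) (cd_inj (by simp only [cd_mul, cd_one, cd_τ]; decide +kernel))
  have r4 := ep_braid c e6 e32 (P 6 (by simp)) (P 32 (by simp)) (cd_inj (by simp only [cd_mul, cd_one, cd_τ]; decide +kernel))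
  have aE : ∀ k, qq 0 k ∈ EE := fun k => qq_a k ▸ pow_mem ((τ_EE (by decide)).2 (by decide)) k
  have cq : ∀ m ∈ QQ, y * ι m * y⁻¹ = ι (m * qq 0 0) := fun m h => by rw [cj_eq (a.cz h), qq_one rfl, mul_one]
  have n : y ∈ 𝐍(Tm ι t EE) := mem_normalizer_of_conj_mem fun x hx => by
    have z : EE ≤ (Tm ι t EE).comap ((MulAut.conj y).toMonoidHom.comp ι) := ee_gen fun k m => by
      obtain ⟨i, r⟩ : ∃ i, y * ι (ee k) * y⁻¹ = ι (ee k * qq 0 i) := by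
        simp only [List.mem_cons, List.not_mem_nil, or_false] at m
        rcases m with rfl | rfl | rfl | rfl | rfl | rfl <;> simp only [ee_val]
        exacts [⟨_, cq _ τ_QQ⟩, ⟨_, e2⟩, ⟨_, e4⟩, ⟨_, cq _ (bb_QQ (by decide) (by decide))⟩, ⟨_, cq _ (bb_QQ (by decide) (by decide))⟩, ⟨_, eb⟩]
      exact show y * ι (ee k) * y⁻¹ ∈ _ from r ▸ c.i_Tm.2 (mul_mem (ee_EE k) (aE i))
    obtain ⟨m, h, rfl | rfl⟩ := c.mem_Tm.1 hx
    · exact z h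
    · rw [← conj_mul, a.xt]
      exact mul_mem (c.ti_Tm.2 (aE 1)) (z h)
  have bL : bb 2 4 ∈ AL := subset_closure (by simp)
  obtain ⟨β, hb, r⟩ := i y n _ bL
  have j0 : j % 2 = 0 := by
    rw [eb, c.ii] at r
    have := mul_mem (inv_mem bL) (r ▸ hb)
    rw [inv_mul_cancel_left] at this
    by_contra z
    rw [qq_eq (j := 1) (by omega), qq_a, pow_one] at this
    exact absurd (W.τA (by decide) this) (by decide)
  have cz : Cz ι P1 y := fun m h => gen_P1 (H := (centralizer {y}).comap ι) (by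
    simp only [List.forall_mem_cons, List.not_mem_nil, IsEmpty.forall_iff, implies_true, and_true]
    refine ⟨ep_cm (cq _ τ_QQ) rfl, ep_cm e2 (by omega), ?_, ep_cm e4 (by omega), ep_cm e6 (by omega), ep_cm e16 (by omega), ep_cm e32 (by omega)⟩
    rw [show τ 3 = τ 2 * (τ 1 * bb 1 2) from cd_inj (by simp only [cd_mul, cd_bb, cd_τ]; decide +kernel)]
    exact mul_mem (ep_cm e2 (by omega)) (ep_cm (cq _ (mul_mem τ_QQ (bb_QQ (by decide) (by decide)))) rfl)) h _ rfl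
  have yt : y * t * y⁻¹ = t * ι (τ 1) := by rw [a.xt, qq_a, pow_one]
  obtain ⟨w, i, o, d⟩ := (a.mul a).ker c rfl rfl
  have yy : y * y = ι (qq w i) := d.resolve_right fun e => by
    have : y * (y * y) * y⁻¹ = y * y := by group
    rw [e, ← conj_mul, yt, cj_eq (a.cz (qq_QQ o i)), mul_left_inj, mul_eq_left, c.i1] at this
    exact absurd this (cd_ne (by rw [cd_τ, cd_one]; decide +kernel))
  obtain e | e := C_P1 (g := qq w i) fun m h => c.inj (by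
    rw [map_mul, map_mul, ← yy]; exact (show Commute _ _ from cz m h).mul_left (cz m h))
  · exact ⟨y, by rw [yy, e, map_one], yt, cz⟩
  refine ⟨y * t, ?_, ?_, fun m h => (show Commute _ _ from cz m h).mul_left (c.cm m)⟩
  · rw [show y * t * (y * t) = y * t * y⁻¹ * (y * y) * t by group, yt, yy, e, mul_assoc t, ← map_mul, τ_sq, map_one, mul_one, c.tt]
  · rw [← yt]; group

end CF.Ft
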