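import Cfsg.Agent.Ft.U
import Cfsg.Agent.Ft.M2b

/-! The endgame. -/

set_option autoImplicit false
set_option linter.unusedSectionVars false
set_option linter.unusedVariables false

namespace CF.Ft

open Cfsg Subgroup CF.Loc U
open scoped commutatorElement

variable {G : Type*} [Group G] [Finite G] {ι : Sp →* G} {t : G} {m : Sp} {X : Subgroup Sp} {U K : Subgroup G}

theorem U.ME (a : m ∈ MM) (b : m ∈ EE) : m = 1 := by
  obtain ⟨k, h, rfl⟩ := mem_EE.1 b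
  obtain ⟨-, a⟩ := mem_MM'.1 a
  simp only [← ap_cd, cd_ee] at a
  rw [(by decide +kernel : ∀ k < 64, ap (ec k) 8 % 8 = 0 ∧ ap (ec k) 16 % 8 = 0 ∧ ap (ec k) 32 % 8 = 0 → k = 0) k h a, ee_val.1]

namespace Us
variable (u : Us ι t U X) (c : Ct ι t)
include u c
theorem TN : Tm ι t SS ≤ 𝐍(U) := fun x i => by
  obtain ⟨m, j, rfl | rfl⟩ := c.mem_Tm.1 i
  exacts [u.nP c (SS_le j), mul_mem (u.nt' c) (u.nP c (SS_le j))]
theorem eg (le : K ≤ 𝐍(U)) (nK : 𝐍(U) ≤ 𝐍(K)) (eK : ∀ m, ι m ∈ K ↔ m ∈ EE) (tK : ∀ m, t * ι m ∉ K)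
    (fus : ∀ s, Dt t s → t * s ∈ K → ∃ k ∈ K, k * t * k⁻¹ = s) (rig : ∀ g, (∀ x ∈ Tm ι t SS, g * x * g⁻¹ ∈ 𝐍(U)) → g ∈ 𝐍(U)) : False := by
  have := normal_subgroupOf_of_le_normalizer nK
  let π := QuotientGroup.mk' (K.subgroupOf 𝐍(U))
  have k : ∀ a b : 𝐍(U), π a = π b ↔ a.1⁻¹ * b ∈ K := fun a b => QuotientGroup.eq
  let j : MM →* 𝐍(U) := (ι.comp MM.subtype).codRestrict _ fun m => u.nP c m.2.1
  obtain ⟨a, b, r, s, l⟩ := l8
  refine b8 l (ι := π.comp j) (t := π ⟨t, u.nt' c⟩) ((injective_iff_map_eq_one _).2 fun m e => Subtype.ext (ME m.2 ((eK m).1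
    ((QuotientGroup.eq_one_iff (N := K.subgroupOf 𝐍(U)) (j m)).1 e)))) (by rw [← map_mul, ← π.map_one]; exact congrArg π (Subtype.ext c.tt))
    (fun m e => tK m (by have : t⁻¹ * ι m ∈ K := (k _ _).1 e; rwa [c.ti] at this)) (fun m => (map_mul π _ _).symm.trans ((congrArg π (Subtype.ext (c.cm m))).trans
      (map_mul π _ _))) (fun g e => ?_) ?_
  · obtain ⟨g, rfl⟩ := QuotientGroup.mk'_surjective _ g
    obtain ⟨y, i, e⟩ := fus _ ⟨g, rfl⟩ (by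
      have : t⁻¹ * (g * t * g.1⁻¹) ∈ K := (k ⟨t, u.nt' c⟩ (g * ⟨t, u.nt' c⟩ * g⁻¹)).1 (by
        rw [map_mul, map_mul, map_inv, e, mul_inv_cancel_right])
      rwa [c.ti] at this)
    obtain ⟨m, o⟩ := c.ct (y⁻¹ * g) (by rw [mul_assoc, mul_inv_eq_iff_eq_mul.1 e.symm]; group)
    have n : y⁻¹ * g ∈ 𝐍(U) := mul_mem (inv_mem (le i)) g.2
    obtain ⟨p, v, q, w, rfl⟩ := PP_dec (u.nP' c (m := m) (by
      rcases o with o | o <;> rw [o] at n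
      exacts [n, (mul_mem_cancel_left (u.nt' c)).1 n]))
    have z : ∀ x ∈ 𝐍(U), y⁻¹ * g = x * ι q → x⁻¹ * g ∈ K := fun x i' e => by
      rw [inv_mul_eq_iff_eq_mul.1 e]
      simpa [mul_assoc] using mul_mem (conj_mem_of_mem_normalizer' (nK i') i) ((eK q).2 w)
    exact ⟨⟨p, v⟩, o.imp (fun o => ((k _ _).2 (z _ (j ⟨p, v⟩).2 (by rw [o, map_mul]; rfl))).symm) fun o =>
      ((k (⟨t, u.nt' c⟩ * j ⟨p, v⟩) _).2 (z _ (mul_mem (u.nt' c) (j ⟨p, v⟩).2) (by rw [o, map_mul, ← mul_assoc]; rfl))).symm.trans (map_mul π _ _)⟩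
  · have := Ft.tr c.tt c.hd c.syl (mem_sup_left (mem_zpowers t)) (u.TN c) le_rfl fun g h => .inr ⟨g, rig g h, rfl⟩
    rw [← map_subtype_commutator] at this
    obtain ⟨x, i, e⟩ := this
    rw [show (⟨t, u.nt' c⟩ : 𝐍(U)) = x from Subtype.ext e.symm]
    rw [_root_.commutator_def] at i ⊢
    exact commutator_mono le_top le_top (Subgroup.map_commutator ⊤ ⊤ π ▸ mem_map_of_mem _ i)
theorem eg1 (k : ∀ e ∈ EE, Dt t (t * ι e) → e ∈ X) (rig : ∀ g, (∀ x ∈ Tm ι t SS, g * x * g⁻¹ ∈ 𝐍(U)) → g ∈ 𝐍(U)) : False := by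
  refine u.eg c le_normalizer le_rfl (fun m => ⟨fun i => ?_, u.le m⟩) u.nt (fun s d i => ?_) rig
  · obtain ⟨e, j, r⟩ := u.ct c i (c.cm m).symm
    exact c.inj r ▸ j
  have ss : s * s = 1 := let ⟨g, e⟩ := d; e ▸ sqj c.tt g
  obtain ⟨e, j, r⟩ := u.ct c i (by
    have : t * s = s * t := by rw [← si (u.sq _ i), mul_inv_rev, si ss, c.ti]
    rw [mul_assoc, ← this])
  obtain rfl : s = t * ι e := by rw [← r, ← mul_assoc, c.tt, one_mul]
  exact u.ex e (k e j d)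
theorem eg2 (fus : ∀ s, Dt t s → t * s ∈ 𝐂(U) → ∃ k ∈ 𝐂(U), k * t * k⁻¹ = s)
    (rig : ∀ g, (∀ x ∈ Tm ι t SS, g * x * g⁻¹ ∈ 𝐍(U)) → g ∈ 𝐍(U)) : False := by
  have k : ∀ e ∈ EE, ι e ∈ 𝐂(U) := fun e i => mem_centralizer_iff'.2 fun x j => u.cz c j e i
  refine u.eg c (centralizer_le_normalizer _) (normalizer_le_normalizer_centralizer _) (fun m => ⟨fun i => C_EE fun e j => c.inj (by
    rw [map_mul, map_mul, mem_centralizer_iff'.1 i _ (u.le e j)]), k m⟩) (fun m i => ?_) fus rig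
  obtain ⟨x, j, e⟩ := u.ex _ u.bX
  rw [cj_eq (mem_centralizer_iff'.1 ((mul_mem_cancel_right (k m (C_EE fun e j => c.tm_inj (by
    rw [map_mul, map_mul, ← mul_assoc, ← mem_centralizer_iff'.1 i _ (u.le e j), ← mul_assoc, ← c.cm, mul_assoc])))).1 i) x j)] at e
  exact b1 (c.tm_inj (e.symm.trans (by simp)))
end Us

end CF.Ft
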