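import Cfsg.Agent.Ft.F1
import Cfsg.Agent.Ft.M2b

/-! Case I: the action on the eight points. -/

set_option autoImplicit false
set_option maxRecDepth 100000
set_option synthInstance.maxSize 4000

namespace CF.Ft

open Cfsg Subgroup CF.Loc CF.Transfer

attribute [local irreducible] ac cd el ee lv dd τ bb

variable {G : Type*} [Group G] {ι : Sp →* G} {t g x y s n h : G} {m l e p : Sp} {u v w j : ℕ} {σ ρ : ℕ → ℕ}

/-- a linear map on three bits -/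
def lin (a b c w : ℕ) : ℕ := w % 2 * a ^^^ w / 2 % 2 * b ^^^ w / 4 % 2 * c

theorem ac_lin (g : Sp) (a : w < 8) : ac g w = lin (ac g 1) (ac g 2) (ac g 4) w := by
  rw [ac_bits, lin, show w / 8 = 0 by omega, show w / 16 = 0 by omega, show w / 32 = 0 by omega]
  simp

theorem x8 (a : u < 8) (b : v < 8) : u ^^^ v < 8 := Nat.xor_lt_two_pow (n := 3) a b

theorem PP_lt (a : p ∈ PP) (b : w < 8) : ac p w < 8 := a w (by omega) b

theorem bb_AL (a : u < 8) (b : v < 8) : bb u v ∈ AL := by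
  obtain ⟨k, c, d⟩ := (by decide +kernel : ∀ u < 8, ∀ v < 8, ∃ k < 8, bc u v = ec (8 * k)) u a v b
  exact mem_AL.2 ⟨k, c, cd_inj (by rw [cd_bb, cd_ee, d])⟩

theorem τ_AL (a : w < 8) (b : τ w ∈ AL) : w = 0 := by
  obtain ⟨k, c, d⟩ := mem_AL.1 b
  have := congrArg cd d
  rw [cd_τ, cd_ee] at this
  exact (by decide +kernel : ∀ w < 8, ∀ k < 8, tc (w % 64) = ec (8 * k) → w = 0) w a k c this

theorem τ_E (a : w < 8) : τ w ∈ EE := (τ_EE (by omega)).2 a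

theorem ex_M1 (a : w < 8) (b : w ≠ 0) : ∃ l ∈ MM, ac l 1 = w := by
  obtain ⟨u, c, v, d, e⟩ := (by decide +kernel : ∀ w < 8, w ≠ 0 → ∃ u < 8, ∃ v < 8,
    u ≠ 0 ∧ u ≠ w ∧ v ≠ 0 ∧ v ≠ w ∧ v ≠ u ∧ v ≠ w ^^^ u) w a b
  exact let ⟨l, p, q, _⟩ := ex_MM a c d ⟨b, e⟩; ⟨l, p, q⟩

theorem ex_M2 (a : u < 8) (b : v < 8) (h : u ≠ 0 ∧ v ≠ 0 ∧ v ≠ u) : ∃ l ∈ MM, ac l 1 = u ∧ ac l 2 = v := by
  obtain ⟨w, c, e⟩ := (by decide +kernel : ∀ u < 8, ∀ v < 8, ∃ w < 8, w ≠ 0 ∧ w ≠ u ∧ w ≠ v ∧ w ≠ u ^^^ v) u a v b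
  exact let ⟨l, p, q, r, _⟩ := ex_MM a b c ⟨h.1, h.2.1, h.2.2, e⟩; ⟨l, p, q, r⟩

namespace I1

def Cd (L : List ℕ) : Prop := (∀ p ∈ [(2, 6), (6, 4)], ∃ u < 8, ∃ v < 8, ∀ w < 8, L.getD (lin 1 p.1 p.2 w) 0 =
    lin 1 u v (L.getD w 0)) → ∃ u < 8, ∃ v < 8, (u ≠ 0 ∧ u ≠ 1 ∧ v ≠ 0 ∧ v ≠ 1 ∧ v ≠ u ∧ v ≠ 1 ^^^ u) ∧
  ((∀ w < 8, lin 1 u v (L.getD w 0) = w ^^^ 1) ∨ ∀ w < 8, lin 1 u v (L.getD w 0) = [1, 0, 2, 3, 4, 5, 6, 7].getD w 0)

instance (L : List ℕ) : Decidable (Cd L) := by unfold Cd; infer_instance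

def go : ℕ → List ℕ → Bool
  | 0, L => decide (Cd L)
  | n + 1, L => (List.range 8).all fun a => decide (a ∈ L) || go n (L ++ [a])

theorem go_ok (M : List ℕ) : ∀ L, go M.length L = true → (∀ a ∈ M, a < 8) → (L ++ M).Nodup → Cd (L ++ M) := by
  induction M with
  | nil => exact fun L h _ _ => by simpa [go] using h
  | cons a M ih =>
    intro L h lt nd
    have := List.all_eq_true.1 h a (by simpa using lt a (by simp))
    rw [decide_eq_false fun m => (List.nodup_append.1 nd).2.2 a m a (by simp) rfl, Bool.false_or] at this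
    simpa using ih _ this (fun b hb => lt b (by simp [hb])) (by simpa using nd)

theorem p8 : go 6 [1, 0] = true := by decide +kernel

/-- `x` permutes the points as `σ` -/
def Pm (ι : Sp →* G) (t x : G) (σ : ℕ → ℕ) : Prop :=
  x ∈ 𝐍(Tm ι t EE) ∧ ∀ w < 8, σ w < 8 ∧ x * (t * ι (τ w)) * x⁻¹ = t * ι (τ (σ w))

theorem Pm.mul (a : Pm ι t x σ) (b : Pm ι t y ρ) : Pm ι t (x * y) fun w => σ (ρ w) :=
  ⟨mul_mem a.1 b.1, fun w hw => ⟨(a.2 _ (b.2 w hw).1).1, by rw [← (a.2 _ (b.2 w hw).1).2, ← (b.2 w hw).2]; group⟩⟩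

theorem Pm.congr (a : Pm ι t x σ) (b : ∀ w < 8, σ w = ρ w) : Pm ι t x ρ :=
  ⟨a.1, fun w hw => b w hw ▸ a.2 w hw⟩

theorem Pm.zero (a : Pm ι t x σ) : x * t * x⁻¹ = t * ι (τ (σ 0)) := by simpa [τ_zero] using (a.2 0 (by decide)).2

variable (c : Ct ι t)
include c

theorem pinj (a : u < 8) (b : v < 8) (e : t * ι (τ u) = t * ι (τ v)) : u = v :=
  τ_inj (by omega) (by omega) (c.inj (mul_left_cancel e))

theorem Pm.uq (a : Pm ι t x σ) (b : Pm ι t x ρ) : ∀ w < 8, σ w = ρ w := fun w hw =>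
  pinj c (a.2 w hw).1 (b.2 w hw).1 ((a.2 w hw).2.symm.trans (b.2 w hw).2)

theorem Pm.inj (a : Pm ι t x σ) (hu : u < 8) (hv : v < 8) (e : σ u = σ v) : u = v :=
  pinj c hu hv (mul_left_cancel (mul_right_cancel ((a.2 u hu).2.trans (e ▸ (a.2 v hv).2.symm))))

theorem ex_pm [Finite G] (k : C1 ι t) (a : x ∈ 𝐍(Tm ι t EE)) : ∃ σ, Pm ι t x σ := by
  have : ∀ w, ∃ v, w < 8 → v < 8 ∧ x * (t * ι (τ w)) * x⁻¹ = t * ι (τ v) := fun w => by
    by_cases hw : w < 8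
    swap
    · exact ⟨0, fun a => absurd a hw⟩
    obtain ⟨e, b, d | d⟩ := c.mem_Tm.1 (Loc.conj_mem_of_mem_normalizer a (c.ti_Tm.2 (τ_E hw)))
    all_goals have q := ((k _).2 ⟨w, by omega, rfl⟩).cj x
    all_goals rw [d] at q
    · exact absurd q (c.nD _)
    · obtain ⟨v, hv, rfl⟩ := (k e).1 q
      exact ⟨v, fun _ => ⟨(τ_EE hv).1 b, d⟩⟩
  choose σ q using this
  exact ⟨σ, a, q⟩

variable [Finite G]

theorem pm_im (a : Im ι t x m) (b : m ∈ PP) : Pm ι t x (ac m) :=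
  ⟨c.nP' a b, fun w hw => ⟨PP_lt b hw, by rw [c.cjt' a, τ_cj m (by omega)]⟩⟩

theorem Pm.fix0 (a : Pm ι t x σ) (b : σ 0 = 0) : ∃ m ∈ PP, Im ι t x m ∧ ∀ w < 8, σ w = ac m w := by
  have e := a.zero
  rw [b, τ_zero, map_one, mul_one, mul_inv_eq_iff_eq_mul] at e
  obtain ⟨m, d⟩ := c.ex e
  exact ⟨m, c.nP d a.1, d, a.uq c (pm_im c d (c.nP d a.1))⟩

theorem ex_tl (k : C1 ι t) : ∃ x, Pm ι t x (· ^^^ 1) := by
  obtain ⟨y, hy, e⟩ := c.ny (fun m hm => ((τ_cm (by decide)).2 (mem_SS.1 hm).1).symm) ((k _).2 ⟨1, by decide, rfl⟩)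
  obtain ⟨a, -, b⟩ := c.nT hy
  obtain ⟨σ, q⟩ := ex_pm c k b
  have e1 : y * (t * ι (τ 1)) * y⁻¹ = t := by
    rw [← conj_mul, e, a, mul_inv_cancel_right, mul_assoc, ← map_mul, τ_sq, map_one, mul_one]
  have s0 : σ 0 = 1 := pinj c (q.2 0 (by decide)).1 (by decide) (q.zero.symm.trans e)
  have s1 : σ 1 = 0 := pinj c (q.2 1 (by decide)).1 (by decide) (by rw [← (q.2 1 (by decide)).2, e1, τ_zero]; simp)
  have L : ∀ w < 8, [1, 0, σ 2, σ 3, σ 4, σ 5, σ 6, σ 7].getD w 0 = σ w := fun w hw => by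
    interval_cases w <;> simp [s0, s1]
  have nd : [1, 0, σ 2, σ 3, σ 4, σ 5, σ 6, σ 7].Nodup := by
    have := (List.nodup_range (n := 8)).map_on (f := σ) fun u hu v hv => q.inj c (by simpa using hu) (by simpa using hv)
    simpa only [List.range_succ, List.range_zero, List.nil_append, List.cons_append, List.map, s0, s1] using this
  have r : ∀ p ∈ PP, ac p 1 = 1 → ∃ u < 8, ∃ v < 8, ∀ w < 8, [1, 0, σ 2, σ 3, σ 4, σ 5, σ 6, σ 7].getD
      (lin 1 (ac p 2) (ac p 4) w) 0 = lin 1 u v ([1, 0, σ 2, σ 3, σ 4, σ 5, σ 6, σ 7].getD w 0) := fun p hp p1 => by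
    obtain ⟨m, d⟩ := c.ex (x := y * ι p * y⁻¹) (by
      rw [← e1, conj_mul, conj_mul, (c.cm_iff (.of p) (.of' (τ 1))).2 ((τ_cm (by decide)).2 p1)])
    have f := c.nP d (mul_mem (mul_mem b (c.nP' (.of p) hp)) (inv_mem b))
    have g := ((pm_im c d f).mul q).uq c (by simpa using q.mul (pm_im c (.of p) hp))
    have m1 : ac m 1 = 1 := by simpa [s0, ac_zero] using g 0 (by decide)
    refine ⟨_, PP_lt f (by decide : 2 < 8), _, PP_lt f (by decide : 4 < 8), fun w hw => ?_⟩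
    rw [L w hw, ← show ac p w = lin 1 _ _ w from p1 ▸ ac_lin p hw, L _ (PP_lt hp hw), ← g w hw, ac_lin m (q.2 w hw).1, m1]
  obtain ⟨u, hu, v, hv, i, z⟩ := go_ok [σ 2, σ 3, σ 4, σ 5, σ 6, σ 7] [1, 0] p8 (by simp [(q.2 _ _).1]) nd (by
      have a := r (bb 2 32) (SS_le x_SS.2.2) (mem_SS.1 x_SS.2.2).1
      have b := r (bb 4 16) (mem_PP.2 (by simp only [ac_cd, cd_bb]; decide +kernel)) (by simp only [ac_cd, cd_bb]; decide +kernel)
      rw [show ac (bb 2 32) 2 = 2 by simp only [ac_cd, cd_bb]; decide +kernel,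
        show ac (bb 2 32) 4 = 6 by simp only [ac_cd, cd_bb]; decide +kernel] at a
      rw [show ac (bb 4 16) 2 = 6 by simp only [ac_cd, cd_bb]; decide +kernel,
        show ac (bb 4 16) 4 = 4 by simp only [ac_cd, cd_bb]; decide +kernel] at b
      simpa only [List.forall_mem_cons, List.not_mem_nil, false_imp_iff, implies_true, and_true] using ⟨a, b⟩)
  obtain ⟨l, hl, l1, l2, l4⟩ := ex_MM (by decide : 1 < 8) hu hv ⟨by decide, i⟩
  have f := ((pm_im c (.of l) hl.1).mul q).congr (ρ := fun w => lin 1 u v ([1, 0, σ 2, σ 3, σ 4, σ 5, σ 6, σ 7].getD w 0))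
    fun w hw => by rw [L w hw, ac_lin l (q.2 w hw).1, l1, l2, l4]
  refine z.elim (fun z => ⟨_, f.congr z⟩) fun z => ?_
  replace f := f.congr z
  obtain ⟨l, hl, l1, l2, l4⟩ := ex_MM (u := 2) (v := 1) (w := 4) (by decide) (by decide) (by decide) (by decide)
  have g := (pm_im c (.of l) hl.1).congr (ρ := lin 2 1 4) fun w hw => by rw [ac_lin l hw, l1, l2, l4]
  obtain ⟨m, -, -, a⟩ := (f.mul (g.mul (f.mul (g.mul f)))).fix0 c (by decide)
  have := ac_xor m 1 4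
  rw [← a 1 (by decide), ← a 4 (by decide), ← a _ (by decide)] at this
  exact absurd this (by decide)

end I1

end CF.Ft
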