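import Cfsg.Agent.Ft.I1

/-! Case I is impossible. -/

set_option autoImplicit false
set_option maxRecDepth 100000
set_option synthInstance.maxSize 4000

namespace CF.Ft

open Cfsg Subgroup CF.Loc CF.Transfer

attribute [local irreducible] ac cd el ee lv dd τ bb

variable {G : Type*} [Group G] {ι : Sp →* G} {t g x y s n h : G} {m l e p : Sp} {u v w j : ℕ} {σ ρ : ℕ → ℕ}

namespace I1

/-- a translation -/
def Tl (ι : Sp →* G) (t x : G) (w : ℕ) : Prop := w < 8 ∧ Pm ι t x (· ^^^ w)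

/-- a good translation -/
def Gd (ι : Sp →* G) (t : G) (j : ℕ) (x : G) (w : ℕ) : Prop :=
  Tl ι t x w ∧ (∃ β ∈ AL, x * x = ι (τ w ^ j * β)) ∧ (w = 0 → ∃ e ∈ EE, x = ι e)

/-- the code of `τ w` in `E` -/
def tk (w : ℕ) : ℕ := [0, 1, 2, 11, 4, 21, 38, 63].getD w 0

theorem τ_tk (a : w < 8) : τ w = ee (tk w) := cd_inj (by
  rw [cd_τ, cd_ee]
  exact (by decide +kernel : ∀ w < 8, tc (w % 64) = ec (tk w)) w a)

/-- the product of the points of a two-cycle -/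
def zz (u a b c w : ℕ) : ℕ := tk w ^^^ tk (lin a b c w ^^^ u)

theorem ffp : ∀ u < 8, ∀ a < 8, ∀ b < 8, ∀ c < 8, (∀ w < 8, lin a b c (lin a b c w ^^^ u) ^^^ u = w ∧ lin a b c w ^^^ u ≠ w) →
    (∀ w < 8, zz u a b c w < 64 ∧ zz u a b c w ≠ 0) ∧ ∃ i < 8, ∃ j < 8, ∃ k < 8, zz u a b c 0 ≠ zz u a b c i ∧
      zz u a b c j ≠ zz u a b c 0 ∧ zz u a b c j ≠ zz u a b c i ∧ zz u a b c 0 ^^^ zz u a b c i = zz u a b c j ^^^ zz u a b c k := by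
  decide +kernel

theorem Tl.mul (a : Tl ι t x u) (b : Tl ι t y v) : Tl ι t (x * y) (u ^^^ v) :=
  ⟨x8 a.1 b.1, (a.2.mul b.2).congr fun w _ => by rw [Nat.xor_assoc, Nat.xor_comm v]⟩

theorem Tl.inv (a : Tl ι t x w) : Tl ι t x⁻¹ w := ⟨a.1, inv_mem a.2.1, fun v hv => ⟨x8 hv a.1, by
  have := (a.2.2 _ (x8 hv a.1)).2
  simp only [Nat.xor_xor_cancel_right] at this
  rw [← this]; group⟩⟩

theorem Tl.tt (a : Tl ι t x w) : x * t * x⁻¹ = t * ι (τ w) := by simpa using a.2.zero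

variable (c : Ct ι t)
include c

theorem Tl.act (a : Tl ι t x w) (b : e ∈ EE) : ∃ β ∈ AL, x * ι e * x⁻¹ = ι (e * β) := by
  let H : Subgroup Sp :=
    { carrier := {e | e ∈ EE ∧ ∃ β ∈ AL, x * ι e * x⁻¹ = ι (e * β)}
      one_mem' := ⟨one_mem _, 1, one_mem _, by simp⟩
      mul_mem' := fun {e f} ⟨p, β, q, r⟩ ⟨p', γ, q', r'⟩ => ⟨mul_mem p p', _, mul_mem q q', by
        rw [map_mul, ← conj_mul, r, r', ← map_mul, mul_assoc, ← mul_assoc β, EE_cm (AL_le q) p']; simp only [mul_assoc]⟩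
      inv_mem' := fun {e} p => by rwa [inv_eq_of_mul_eq_one_right (EE_sq p.1)] }
  refine (gen_EE (H := H) (fun v hv => ⟨τ_E hv, _, bb_AL hv a.1, mul_left_cancel (a := x * t * x⁻¹) ?_⟩) b).2
  rw [conj_mul, (a.2.2 v hv).2, a.tt, mul_assoc, ← map_mul, bb, mul_assoc (τ v), ← mul_assoc (τ v), τ_sq, one_mul,
    ← mul_assoc, τ_sq, one_mul]

theorem Tl.sw (a : Tl ι t x w) (b : e ∈ EE) : ∃ β ∈ AL, ι e * x = x * ι (e * β) :=
  let ⟨β, p, q⟩ := a.inv.act c b; ⟨β, p, by rw [← q]; group⟩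

theorem Tl.sqE (a : Tl ι t x w) (b : e ∈ EE) : ∃ β ∈ AL, x * ι e * (x * ι e) = x * x * ι β := by
  obtain ⟨β, p, q⟩ := a.sw c b
  refine ⟨β, p, ?_⟩
  rw [mul_assoc, ← mul_assoc (ι e), q, mul_assoc, ← map_mul, EE_cm b (AL_le p), mul_assoc β, EE_sq b, mul_one, mul_assoc]

theorem Tl.sqt (a : Tl ι t x w) : x * t * (x * t) = x * x * ι (τ w) := by
  calc _ = x * x * (x⁻¹ * t * x⁻¹⁻¹ * t) := by group
    _ = _ := by rw [a.inv.tt, mul_assoc t, c.it, c.ttx]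

variable [Finite G]

theorem tl_im (a : Im ι t x e) (b : e ∈ EE) : Tl ι t x 0 :=
  ⟨by decide, (pm_im c a (SS_le (EE_le b))).congr fun w hw => by rw [mem_Fx.1 b w hw]; simp; omega⟩

theorem Tl.A (a : Tl ι t x 0) : ∃ e ∈ EE, Im ι t x e :=
  let ⟨m, _, p, q⟩ := a.2.fix0 c rfl
  ⟨m, mem_EE'.2 ⟨(q 1 (by decide)).symm, (q 2 (by decide)).symm, (q 4 (by decide)).symm⟩, p⟩

theorem Tl.dif (a : Tl ι t x w) (b : Tl ι t y w) : ∃ e ∈ EE, y = x * ι e ∨ y = x * t * ι e := by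
  obtain ⟨e, p, q⟩ := (Nat.xor_self w ▸ a.inv.mul b).A c
  exact ⟨e, p, q.imp (fun q => by rw [← q]; group) fun q => by rw [mul_assoc, ← q]; group⟩

theorem Tl.cj (a : Tl ι t x w) (b : p ∈ PP) : Tl ι t (ι p * x * (ι p)⁻¹) (ac p w) :=
  ⟨PP_lt b a.1, (((pm_im c (.of p) b).mul a.2).mul (pm_im c (c.inv (.of p)) (inv_mem b))).congr fun v hv => by
    rw [ac_xor, ac_inv' p (by omega)]⟩

theorem Tl.mt (a : Tl ι t x w) : Tl ι t (x * t) w := by simpa using a.mul (tl_im c .tt (one_mem _))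

theorem Tl.sq (a : Tl ι t x w) (b : w ≠ 0) : ∃ e ∈ EE, x * x = ι e := by
  obtain ⟨e, p, q | q⟩ := (Nat.xor_self w ▸ a.mul a).A c
  · exact ⟨e, p, q⟩
  obtain ⟨β, r, k⟩ := a.act c p
  have : x * (x * x) * x⁻¹ = x * x := by group
  rw [q, ← conj_mul, a.tt, k, mul_assoc, mul_right_inj, ← map_mul, c.ii, EE_cm p (AL_le r), ← mul_assoc, mul_eq_right,
    mul_eq_one_iff_eq_inv] at this
  exact absurd (τ_AL a.1 (this ▸ inv_mem r)) b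

theorem gd0 (a : e ∈ EE) : Gd ι t j (ι e) 0 :=
  ⟨tl_im c (.of e) a, ⟨1, one_mem _, by rw [← map_mul, EE_sq a, τ_zero]; simp⟩, fun _ => ⟨e, a, rfl⟩⟩

theorem Gd.mE (a : Gd ι t j x w) (b : e ∈ EE) : Gd ι t j (x * ι e) w := by
  obtain ⟨β, p, q⟩ := a.2.1
  obtain ⟨γ, r, k⟩ := a.1.sqE c b
  exact ⟨by simpa using a.1.mul (tl_im c (.of e) b), ⟨_, mul_mem p r, by rw [k, q, ← map_mul, mul_assoc]⟩, fun z =>
    let ⟨f, p, q⟩ := a.2.2 z; ⟨_, mul_mem p b, by rw [q, map_mul]⟩⟩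

theorem Gd.Em (a : Gd ι t j x w) (b : e ∈ EE) : Gd ι t j (ι e * x) w :=
  let ⟨_, p, q⟩ := a.1.sw c b; q ▸ a.mE c (mul_mem b (AL_le p))

theorem Gd.sq (a : Gd ι t j x w) : ∃ e ∈ EE, x * x = ι e :=
  let ⟨_, p, q⟩ := a.2.1; ⟨_, mul_mem (pow_mem (τ_E a.1.1) j) (AL_le p), q⟩

theorem Gd.inv (a : Gd ι t j x w) : Gd ι t j x⁻¹ w := by
  obtain ⟨e, p, q⟩ := a.sq c
  have := a.mE c (inv_mem p)
  rwa [map_inv, ← q, mul_inv_rev, mul_inv_cancel_left] at this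

theorem Gd.fl (a : Gd ι t j x w) (b : w ≠ 0) : Gd ι t (j + 1) (x * t) w :=
  let ⟨β, p, q⟩ := a.2.1
  ⟨a.1.mt c, ⟨β, p, by rw [a.1.sqt c, q, ← map_mul, mul_assoc, EE_cm (AL_le p) (τ_E a.1.1), ← mul_assoc, pow_succ]⟩,
    fun z => absurd z b⟩

theorem Gd.uq (a : Gd ι t j x w) (b : Gd ι t j y w) : ∃ e ∈ EE, y = x * ι e := by
  by_cases z : w = 0
  · obtain ⟨e, p, rfl⟩ := a.2.2 z
    obtain ⟨f, q, rfl⟩ := b.2.2 z
    exact ⟨_, mul_mem (inv_mem p) q, by simp⟩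
  obtain ⟨e, p, q | rfl⟩ := a.1.dif c b.1
  · exact ⟨e, p, q⟩
  obtain ⟨β, q, r⟩ := ((a.fl c z).mE c p).2.1
  obtain ⟨γ, q', r'⟩ := b.2.1
  rw [r', c.ii, pow_succ, mul_assoc, mul_right_inj] at r
  exact absurd (τ_AL a.1.1 ((mul_mem_cancel_right q).1 (r ▸ q'))) z

theorem Gd.cj (a : Gd ι t j x w) (b : p ∈ PP) : Gd ι t j (ι p * x * (ι p)⁻¹) (ac p w) := by
  obtain ⟨β, q, r⟩ := a.2.1
  have k : w < 64 := by have := a.1.1; omega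
  refine ⟨a.1.cj c b, ⟨_, AL_cj b q, ?_⟩, fun z => ?_⟩
  · rw [conj_mul, r, c.cji (.of p), ← τ_cj p k, conj_pow, conj_mul]
  · obtain ⟨e, q, rfl⟩ := a.2.2 (by_contra fun n => ac_ne p k n z)
    exact ⟨_, EE_cj b q, c.cji (.of p) e⟩

theorem ex_gd (k : C1 ι t) : ∃ j x, Gd ι t j x 1 := by
  obtain ⟨x, a⟩ := ex_tl c k
  replace a : Tl ι t x 1 := ⟨by decide, a⟩
  obtain ⟨e, b, d⟩ := a.sq c (by decide)
  obtain ⟨k, hk, rfl⟩ := mem_EE.1 b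
  have r : ∀ p ∈ PP, ac p 1 = 1 → ∃ i < 2, ∃ j < 8, mu (mu (cd p) (ec k)) (iv (cd p)) = ec (k ^^^ i ^^^ 8 * j) := fun p hp p1 => by
    have q : ι p * x * (ι p)⁻¹ * (ι p * x * (ι p)⁻¹) = ι (p * ee k * p⁻¹) := by rw [conj_mul, d, c.cji (.of p)]
    obtain ⟨e, u, v | v⟩ := a.dif c (p1 ▸ a.cj c hp)
    · obtain ⟨_, f, g⟩ := a.sqE c u
      obtain ⟨j, hj, rfl⟩ := mem_AL.1 f
      rw [v, g, d, ← map_mul, c.ii, ee_mul] at q
      exact ⟨0, by decide, j, hj, by rw [← cd_ee k, ← cd_inv, ← cd_mul, ← cd_mul, ← q, cd_ee, Nat.xor_zero]⟩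
    · obtain ⟨_, f, g⟩ := (a.mt c).sqE c u
      obtain ⟨j, hj, rfl⟩ := mem_AL.1 f
      rw [v, g, a.sqt c, d, ← map_mul, ← map_mul, c.ii, ← ee_val.2.1, ee_mul, ee_mul] at q
      exact ⟨1, by decide, j, hj, by rw [← cd_ee k, ← cd_inv, ← cd_mul, ← cd_mul, ← q, cd_ee]⟩
  have r1 := r (bb 2 32) (SS_le x_SS.2.2) (mem_SS.1 x_SS.2.2).1
  have r2 := r (bb 4 16) (mem_PP.2 (by simp only [ac_cd, cd_bb]; decide +kernel)) (by simp only [ac_cd, cd_bb]; decide +kernel)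
  rw [cd_bb] at r1 r2
  obtain ⟨i, hi, j, hj, e⟩ := (by decide +kernel : ∀ k < 64, (∀ p ∈ [bc 2 32, bc 4 16], ∃ i < 2, ∃ j < 8,
    mu (mu p (ec k)) (iv p) = ec (k ^^^ i ^^^ 8 * j)) → ∃ i < 2, ∃ j < 8, k = i ^^^ 8 * j) k hk (List.forall_mem_cons.2 ⟨r1, List.forall_mem_singleton.2 r2⟩)
  refine ⟨i, x, a, ⟨_, mem_AL.2 ⟨j, hj, rfl⟩, ?_⟩, fun z => absurd z (by decide)⟩
  rw [d, e, ← ee_mul]
  interval_cases i <;> simp [ee_val.1, ee_val.2.1]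

theorem ex_w (a : Gd ι t j x 1) (b : w < 8) : ∃ x, Gd ι t j x w := by
  by_cases z : w = 0
  · exact ⟨_, z ▸ gd0 c (one_mem _)⟩
  obtain ⟨l, p, rfl⟩ := ex_M1 b z
  exact ⟨_, a.cj c p.1⟩

theorem tri (k : C1 ι t) : ∃ j x y z, Gd ι t j x 1 ∧ Gd ι t j y 2 ∧ Gd ι t j z 3 ∧ ∃ e ∈ EE, x * y * z = ι e := by
  obtain ⟨j, x, a⟩ := ex_gd c k
  obtain ⟨y, b⟩ := ex_w c a (w := 2) (by decide)
  obtain ⟨z, d⟩ := ex_w c a (w := 3) (by decide)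
  obtain ⟨e, p, q | q⟩ := Tl.A c ((a.1.mul b.1).mul d.1)
  · exact ⟨j, x, y, z, a, b, d, e, p, q⟩
  obtain ⟨β, u, v⟩ := d.1.sw c (τ_E (w := 2) (by decide))
  refine ⟨_, _, _, _, a.fl c (by decide), b.fl c (by decide), d.fl c (by decide), _,
    mul_mem p (mul_mem (τ_E (w := 2) (by decide)) (AL_le u)), ?_⟩
  calc _ = x * y * (y⁻¹ * t * y⁻¹⁻¹ * t * z) * t := by group
    _ = _ := by rw [b.1.inv.tt, mul_assoc t, c.it, c.ttx, v, ← mul_assoc, q, mul_assoc, c.it, mul_assoc, c.itx, c.ttx, ← map_mul]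

theorem Gd.mul {x1 x2 x3 : G} (a1 : Gd ι t j x1 1) (a2 : Gd ι t j x2 2) (a3 : Gd ι t j x3 3) (q : e ∈ EE)
    (r : x1 * x2 * x3 = ι e) (a : Gd ι t j x u) (b : Gd ι t j y v) : Gd ι t j (x * y) (u ^^^ v) := by
  by_cases z1 : u = 0
  · obtain ⟨e, p, rfl⟩ := a.2.2 z1
    simpa [z1] using b.Em c p
  by_cases z2 : v = 0
  · obtain ⟨e, p, rfl⟩ := b.2.2 z2
    simpa [z2] using a.mE c p
  by_cases z : v = u
  · subst z
    obtain ⟨e, p, rfl⟩ := a.uq c b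
    obtain ⟨f, q, r⟩ := a.sq c
    rw [← mul_assoc, r, ← map_mul, Nat.xor_self]
    exact gd0 c (mul_mem q p)
  obtain ⟨l, p, rfl, rfl⟩ := ex_M2 a.1.1 b.1.1 ⟨z1, z2, z⟩
  obtain ⟨e1, p1, rfl⟩ := (a1.cj c p.1).uq c a
  obtain ⟨e2, p2, k⟩ := (a2.cj c p.1).uq c (b.Em c p1)
  have := (((a3.cj c p.1).inv c).Em c (EE_cj p.1 q)).mE c p2
  rw [← c.cji (.of l), ← r, show ac l 3 = _ from ac_xor l 1 2] at this
  convert this using 1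
  rw [mul_assoc, k]
  group

theorem inA (k : C1 ι t) (a : s ∈ 𝐍(Tm ι t EE)) (d : Dt t s) (x : ∀ w < 8, ∃ x, Tl ι t x w) : s ∈ Tm ι t EE := by
  obtain ⟨σ, q⟩ := ex_pm c k a
  by_cases z : ∃ w < 8, σ w = w
  · obtain ⟨w, hw, z⟩ := z
    obtain ⟨n, p, r⟩ := c.nA (c.ti_Tm.2 (τ_E hw)) ((k _).2 ⟨w, by omega, rfl⟩)
    have e := (q.2 w hw).2
    rw [z, ← r] at e
    obtain ⟨m, b⟩ := c.ex (x := n⁻¹ * s * n⁻¹⁻¹) (by
      calc _ = n⁻¹ * (s * (n * t * n⁻¹) * s⁻¹) * s * n := by group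
        _ = _ := by rw [e]; group)
    have f := c.nP b (mul_mem (mul_mem (inv_mem p) a) (inv_mem (inv_mem p)))
    obtain ⟨v, hv, rfl⟩ := (k m).1 (c.im_D b (d.cj _) ▸ d.cj _)
    simp only [mem_PP, ac_tv hv, Nat.reduceLT] at f
    have := Loc.conj_mem_of_mem_normalizer p ((c.im_Tm b).2 (τ_E
      ((by decide +kernel : ∀ v < 64, tv v 1 < 8 ∧ tv v 2 < 8 ∧ tv v 4 < 8 → v < 8) v hv f)))
    simpa [mul_assoc] using this
  exfalso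
  obtain ⟨x, b⟩ := x _ (q.2 0 (by decide)).1
  obtain ⟨m, p, -, r⟩ := (b.2.mul q).fix0 c (Nat.xor_self _)
  have e : ∀ w < 8, lin (ac m 1) (ac m 2) (ac m 4) w ^^^ σ 0 = σ w := fun w hw => by
    rw [← ac_lin m hw, ← r w hw, Nat.xor_xor_cancel_right]
  have ss := c.sq d
  have i := (q.mul q).uq c (ss ▸ ι.map_one ▸ pm_im c (.of 1) (one_mem _))
  obtain ⟨f, i, hi, j, hj, l, hl, n1, n2, n3, n4⟩ := ffp _ b.1 _ (PP_lt p (by decide : 1 < 8)) _ (PP_lt p (by decide : 2 < 8)) _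
    (PP_lt p (by decide : 4 < 8)) fun w hw => by
      rw [e w hw, e _ (q.2 w hw).1]
      exact ⟨(i w hw).trans (ac_one (by omega)), fun a => z ⟨w, hw, a⟩⟩
  obtain ⟨g, rfl⟩ := d
  have key : ∀ w < 8, ∃ v < 64, g⁻¹ * ι (ee (zz (σ 0) (ac m 1) (ac m 2) (ac m 4) w)) * g = ι (τ v) := fun w hw => by
    have A := c.ti_Tm.2 (τ_E hw)
    have u := c.A_cm A (Loc.conj_mem_of_mem_normalizer a A)
    have v : ι (ee (zz (σ 0) (ac m 1) (ac m 2) (ac m 4) w)) = t * ι (τ w) * (g * t * g⁻¹ * (t * ι (τ w)) * (g * t * g⁻¹)⁻¹) := by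
      rw [(q.2 w hw).2, zz, e w hw, ← ee_mul, ← τ_tk hw, ← τ_tk (q.2 w hw).1, mul_assoc, c.itx, c.ttx, map_mul]
    have pp := c.A_sq A
    rw [v]
    generalize t * ι (τ w) = y at u pp
    have si : (g * t * g⁻¹)⁻¹ = g * t * g⁻¹ := inv_eq_of_mul_eq_one_right ss
    have u1 : t * (g⁻¹ * (y * (g * t * g⁻¹ * y * (g * t * g⁻¹)⁻¹)) * g) = g⁻¹ * y * g * t * (g⁻¹ * y * g)⁻¹ := by
      rw [u, si, show (g⁻¹ * y * g)⁻¹ = g⁻¹ * y⁻¹ * g by group, inv_eq_of_mul_eq_one_right pp]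
      calc _ = g⁻¹ * (g * t * g⁻¹ * (g * t * g⁻¹)) * y * (g * t * g⁻¹) * y * g := by group
        _ = _ := by rw [ss]; group
    obtain ⟨m, b⟩ := c.ex (x := g⁻¹ * (y * (g * t * g⁻¹ * y * (g * t * g⁻¹)⁻¹)) * g) (by
      rw [u1, si]
      calc _ = g⁻¹ * y * (g * t * g⁻¹) * y * (g * t * g⁻¹ * (g * t * g⁻¹)) * g := by group
        _ = _ := by rw [ss, show (g⁻¹ * y * g)⁻¹ = g⁻¹ * y⁻¹ * g by group, inv_eq_of_mul_eq_one_right pp]; group)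
    have d : Dt t _ := ⟨_, u1.symm⟩
    rcases b with b | b <;> rw [b] at d ⊢
    · exact let ⟨v, p, q⟩ := (k m).1 d; ⟨v, p, by rw [q]⟩
    · exact absurd (c.ttx (ι m) ▸ d :) (c.nD m)
  have ne : ∀ {u w a b}, u < 64 → w < 64 → g⁻¹ * ι (ee u) * g = ι (τ a) → g⁻¹ * ι (ee w) * g = ι (τ b) → a = b → u = w :=
    fun p q r s e => ee_inj p q (c.inj (mul_left_cancel (mul_right_cancel (r.trans (e ▸ s.symm)))))
  have z0 : g⁻¹ * ι (ee 0) * g = ι (τ 0) := by simp [ee_val.1, τ_zero]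
  have ml : ∀ {u w a b}, g⁻¹ * ι (ee u) * g = ι (τ a) → g⁻¹ * ι (ee w) * g = ι (τ b) →
      g⁻¹ * ι (ee (u ^^^ w)) * g = ι (τ a * τ b) := fun p q => by rw [map_mul, ← p, ← q, ← ee_mul, map_mul]; group
  obtain ⟨v0, p0, q0⟩ := key 0 (by decide)
  obtain ⟨v1, p1, q1⟩ := key i hi
  obtain ⟨v2, p2, q2⟩ := key j hj
  obtain ⟨v3, p3, q3⟩ := key l hl
  have f0 := f 0 (by decide)
  rcases t4 ⟨p0, p1, p2, p3⟩ ⟨fun a => f0.2 (ne f0.1 (by decide) q0 z0 a), fun a => (f i hi).2 (ne (f i hi).1 (by decide) q1 z0 a),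
    fun a => n1 (ne f0.1 (f i hi).1 q0 q1 a)⟩ (c.inj ((ml q0 q1).symm.trans (Nat.xor_comm _ _ ▸ ml q1 q0)))
    (c.inj ((ml q0 q1).symm.trans (n4 ▸ ml q2 q3))) with a | a
  exacts [n2 (ne (f j hj).1 f0.1 q2 q0 a), n3 (ne (f j hj).1 (f i hi).1 q2 q1 a)]

end I1

open I1 in
theorem Ct.caseI [Finite G] (c : Ct ι t) (k : C1 ι t) : False := by
  obtain ⟨j, x1, x2, x3, a1, a2, a3, e, q, r⟩ := tri c k
  let M : Subgroup G :=
    { carrier := {g | ∃ w x, ∃ p ∈ PP, Gd ι t j x w ∧ g = x * ι p}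
      one_mem' := ⟨0, _, 1, one_mem _, gd0 c (one_mem _), by simp⟩
      mul_mem' := by
        rintro _ _ ⟨u, x, p, a, b, rfl⟩ ⟨v, y, p', a', b', rfl⟩
        exact ⟨_, _, _, mul_mem a a', Gd.mul c a1 a2 a3 q r b (b'.cj c a), by simp [mul_assoc]⟩
      inv_mem' := by
        rintro _ ⟨u, x, p, a, b, rfl⟩
        exact ⟨_, _, _, inv_mem a, (b.inv c).cj c (inv_mem a), by simp [mul_assoc]⟩ }
  have dec : ∀ a ∈ 𝐍(Tm ι t EE), a ∉ M → ∃ y ∈ M, a = y * t := fun a p n => by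
    obtain ⟨σ, b⟩ := ex_pm c k p
    obtain ⟨x, d⟩ := ex_w c a1 (b.2 0 (by decide)).1
    obtain ⟨m, u, v | v, -⟩ := (d.1.inv.2.mul b).fix0 c (Nat.xor_self _)
    · exact absurd ⟨_, x, m, u, d, by rw [← v]; group⟩ n
    · exact ⟨_, ⟨_, x, m, u, d, rfl⟩, by rw [mul_assoc, c.it, ← v]; group⟩
  obtain ⟨w, x, p, a, b, e⟩ := tr2 (M := M) c.tt c.hd c.syl c.t_Tm (H := 𝐍(Tm ι t EE))
    (fun x hx => let ⟨_, a, b⟩ := c.mem_Tm'.1 hx; c.nP' b (SS_le a)) (fun a p b q u v => by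
      obtain ⟨y, r, rfl⟩ := dec a p u
      obtain ⟨_, ⟨w, x, m, a, b, rfl⟩, rfl⟩ := dec b q v
      refine mul_assoc y t _ ▸ mul_mem r ⟨w, x, τ w * m, mul_mem (SS_le (EE_le (τ_E b.1.1))) a, b, ?_⟩
      calc _ = x * (x⁻¹ * t * x⁻¹⁻¹ * (ι m * t)) := by group
        _ = _ := by rw [b.1.inv.tt, c.it, mul_assoc t, c.itx, c.ttx, map_mul])
    fun g hg => .inr (c.nA (inA c k (hg t c.t_Tm) ⟨g, rfl⟩ fun w hw => (ex_w c a1 hw).imp fun _ a => a.1) ⟨g, rfl⟩)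
  have := b.1.tt
  rw [show x = t * ι p⁻¹ by rw [e]; simp, c.cjt (.of' _), left_eq_mul, c.i1, ← τ_zero] at this
  obtain ⟨f, -, rfl⟩ := b.2.2 (τ_inj (by have := b.1.1; omega) (by decide) this)
  exact c.nt _ (e.trans (map_mul ι f p).symm)

end CF.Ft
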