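import Cfsg.Agent.Ft.Y1a

/-! The involution moving `t` to `t b`. -/

set_option autoImplicit false
set_option maxRecDepth 100000
set_option synthInstance.maxSize 4000

namespace CF.Ft

open Cfsg Subgroup CF.Loc U W

attribute [local irreducible] ac cd el ee lv dd τ bb ρ3 σ3

variable {G : Type*} [Group G] {ι : Sp →* G} {t g x y : G} {m n p r s u : Sp}

/-- the elements of the model commuting with `g` -/
def Hc (ι : Sp →* G) (g : G) : Subgroup Sp := (centralizer {g}).comap ι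

theorem mem_Hc : m ∈ Hc ι g ↔ g * ι m = ι m * g := mem_centralizer_singleton_iff.trans eq_comm
theorem Hc.cj (i : m ∈ Hc ι g) : g * ι m * g⁻¹ = ι m := cj_eq (mem_Hc.1 i)
theorem Hc.of (e : g * ι m * g⁻¹ = ι m) : m ∈ Hc ι g := mem_Hc.2 (mul_inv_eq_iff_eq_mul.1 e)
theorem Hc.cjc (i : s ∈ Hc ι g) (u : Sp) : g * ι (s * u * s⁻¹) * g⁻¹ = ι s * (g * ι u * g⁻¹) * (ι s)⁻¹ := by
  rw [map_mul, map_mul, cjm, cjm, Hc.cj i, Hc.cj (inv_mem i), map_inv]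
theorem Hc.mul (i : m ∈ Hc ι g) (j : m ∈ Hc ι y) : m ∈ Hc ι (g * y) :=
  mem_Hc.2 (by rw [mul_assoc, mem_Hc.1 j, ← mul_assoc, mem_Hc.1 i, mul_assoc])
theorem Hc.im (e : p * m = m * p) : m ∈ Hc ι (ι p) := mem_Hc.2 (by rw [← map_mul, e, map_mul])

namespace Y
/-- `g` moves `t` to `t b` and fixes `b` -/
structure Y0 (ι : Sp →* G) (t g : G) : Prop where
  gt : g * t * g⁻¹ = t * ι (bb 1 2)
  gb : bb 1 2 ∈ Hc ι g

theorem bsq : bb 1 2 * bb 1 2 = 1 := EE_sq (AL_le bA)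

theorem inv3 (a : g * g = 1) (i : s ∈ Hc ι g) (e : g * ι u * g⁻¹ = ι (s * u * s⁻¹)) : ι (s * (s * u * s⁻¹) * s⁻¹) = ι u := by
  have := Hc.cjc i u
  rw [← e, e, ← map_inv, ← map_mul, ← map_mul, ← e] at this
  rw [← this]
  calc _ = g * g * ι u * (g * g)⁻¹ := by group
    _ = _ := by rw [a]; group

variable (c : Ct ι t)
include c

theorem nrm (a : Im ι t x m) (e : x * (ι s * x * (ι s)⁻¹) * (ι r * x * (ι r)⁻¹) = 1) :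
    x = ι m ∧ m * (s * m * s⁻¹) * (r * m * r⁻¹) = 1 := by
  rcases a with rfl | rfl
  · exact ⟨rfl, c.i1.1 (by simpa using e)⟩
  rw [c.cjt' (.of s), c.cjt' (.of r), mul_assoc t, c.itx, c.ttx, ← map_mul, c.itx, ← map_mul, ← ι.map_one] at e
  exact (c.ne1 _ _ e).elim

theorem cmt (a : Im ι t (g * ι m * g⁻¹) n) (i : s ∈ Hc ι g) (j : m * s * m⁻¹ ∈ Hc ι g) : n * s * n⁻¹ = m * s * m⁻¹ := c.inj (by
  rw [← c.cji a, ← Hc.cj j, ← Hc.cj i, map_mul, map_mul, map_inv]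
  conv_rhs => rw [← Hc.cj i]
  rw [Hc.cj i]; conv_lhs => rw [← Hc.cj i]
  group)

theorem cmt' (a : Im ι t (g * ι m * g⁻¹) n) (i : s ∈ Hc ι g) (e : m * s = s * m) : n * s = s * n :=
  mul_inv_eq_iff_eq_mul.1 ((cmt c a i (by rwa [cj_eq e])).trans (cj_eq e))

theorem Y0.im (k : Y0 ι t g) (i : m ∈ P2) : ∃ n ∈ P2, Im ι t (g * ι m * g⁻¹) n := by
  have e := C_b.2 i
  have b : Commute (g * ι m * g⁻¹) (ι (bb 1 2)) := by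
    show _ = _
    rw [← Hc.cj k.gb, ← cjm, ← cjm, ← map_mul, e, map_mul]
  have d : Commute (g * ι m * g⁻¹) (t * ι (bb 1 2)) := by
    show _ = _
    rw [← k.gt, ← cjm, ← cjm, c.cm]
  obtain ⟨n, a⟩ := c.ex (x := g * ι m * g⁻¹) (by simpa [mul_assoc, ← map_mul, bsq] using (d.mul_right b).eq)
  exact ⟨n, C_b.1 (cmt' c a k.gb e), a⟩

theorem Y0.adj (k : Y0 ι t g) (i : p ∈ P2) : Y0 ι t (ι p * g) :=
  ⟨by rw [show ι p * g * t * (ι p * g)⁻¹ = ι p * (g * t * g⁻¹) * (ι p)⁻¹ by group, k.gt, c.cjt' (.of p), cj_eq (C_b.2 i)],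
    Hc.mul (Hc.im (C_b.2 i)) k.gb⟩

omit c in
theorem adj (e : g * ι u * g⁻¹ = ι m) (d : p * m * p⁻¹ = u) : u ∈ Hc ι (ι p * g) := Hc.of (by
  rw [show ι p * g * ι u * (ι p * g)⁻¹ = ι p * (g * ι u * g⁻¹) * (ι p)⁻¹ by group, e, ← d, map_mul, map_mul, map_inv])

omit c in
theorem ne1 (e : g * ι u * g⁻¹ = ι m) (c : Ct ι t) (z : u ≠ 1) : m ≠ 1 := fun h => z (c.i1.1 (by simpa [h] using e))

theorem Y0.nm (k : Y0 ι t g) (i : m ∈ P2) (a : s ∈ Hc ι g) (b : r ∈ Hc ι g) (e : m * (s * m * s⁻¹) * (r * m * r⁻¹) = 1) :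
    ∃ n ∈ P2, g * ι m * g⁻¹ = ι n ∧ n * (s * n * s⁻¹) * (r * n * r⁻¹) = 1 :=
  let ⟨n, j, d⟩ := k.im c i
  ⟨n, j, nrm c d (by rw [← Hc.cjc a, ← Hc.cjc b, ← cjm, ← cjm, ← map_mul, ← map_mul, e]; simp)⟩

omit c in
theorem md : ρ3 * ρ3 * ρ3 = 1 ∧ σ3 * σ3 * σ3 = 1 ∧ ρ3 ≠ 1 ∧ σ3 ≠ 1 ∧ σ3 * ρ3 = ρ3 * σ3 ∧ τ 4 * ρ3 * (τ 4)⁻¹ = ρ3 * ρ3 ∧ τ 4 * σ3 = σ3 * τ 4 ∧
    bb 1 16 * ρ3 = ρ3 * bb 1 16 ∧ bb 1 16 * σ3 * (bb 1 16)⁻¹ = σ3 * σ3 ∧ τ 1 * ρ3 = ρ3 * τ 1 := by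
  refine ⟨?_, ?_, cd_ne ?_, cd_ne ?_, ?_, ?_, ?_, ?_, ?_, ?_⟩ <;> try refine cd_inj ?_
  all_goals simp only [cd_mul, cd_inv, cd_τ, cd_bb, cd_ρ, cd_σ, cd_one]; decide +kernel

theorem ex_ρσ [Finite G] (d : Dt t (t * ι (bb 1 2))) : ∃ g, Y0 ι t g ∧ ρ3 ∈ Hc ι g ∧ σ3 ∈ Hc ι g := by
  obtain ⟨r3, s3, r1, s1, sr, r4, s4, -, -, ra⟩ := md
  obtain ⟨y, a, b⟩ := c.ny (fun m i => (C_b.2 (SS_P2 i)).symm) d
  have k : Y0 ι t y := ⟨b, mem_Hc.2 (c.nT a).2.1⟩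
  obtain ⟨m, i, e, f⟩ := k.nm c (F4_P2 ρF) (one_mem _) (one_mem _) (by simpa using r3)
  obtain ⟨p, j, q⟩ := cjρ (mem_P1.2 ((τ_cm (by decide)).1 (cmt' c (.inl e) (mem_Hc.2 (c.nT a).1) ra.symm))) i (by simpa using f) (ne1 e c r1)
  replace k := k.adj c j
  have hρ := adj e q
  generalize ι p * y = g at k hρ
  clear e f q a b i j
  obtain ⟨m, i, e, f⟩ := k.nm c σ_P2 (one_mem _) (one_mem _) (by simpa using s3)
  obtain ⟨n, j, a⟩ := k.im c (SS_P2 (EE_le (τE (u := 4) (by decide))))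
  have mr := cmt' c (.inl e) hρ sr
  have nr := cmt c a hρ (r4 ▸ mul_mem hρ hρ)
  obtain ⟨p, l, q, z⟩ := cjσ i mr (by simpa using f) (ne1 e c s1) (fix4 (n := n * τ 4) mr (mul_inv_eq_iff_eq_mul.1 (by
    rw [show n * τ 4 * ρ3 * (n * τ 4)⁻¹ = n * (τ 4 * ρ3 * (τ 4)⁻¹) * n⁻¹ by group, r4, cjm, nr, r4, ← mul_assoc, r3, one_mul])) (by
    rw [mul_assoc n, τ_sq, mul_one, ← c.cm_iff (.inl e) a, ← cjm, ← cjm, ← map_mul, ← s4, map_mul]))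
  exact ⟨_, k.adj c l, Hc.mul (Hc.im q) hρ, adj e z⟩

theorem Y0.mem18 (k : Y0 ι t g) (a : ρ3 ∈ Hc ι g) (b : σ3 ∈ Hc ι g) (i : m ∈ P2) (e : m * ρ3 = ρ3 * m) (d : m * σ3 = σ3 * m) :
    m ∈ Hc ι g :=
  let ⟨_, _, _, f⟩ := (c18 i e d).1
  f ▸ mul_mem (mul_mem (pow_mem a _) (pow_mem b _)) (pow_mem k.gb _)

theorem ex_inv [Finite G] (d : Dt t (t * ι (bb 1 2))) : ∃ g, g * g = 1 ∧ Y0 ι t g ∧ ρ3 ∈ Hc ι g ∧ σ3 ∈ Hc ι g := by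
  obtain ⟨y, k, a, b⟩ := ex_ρσ c d
  have yt : y * y * t * (y * y)⁻¹ = t := by
    rw [show y * y * t * (y * y)⁻¹ = y * (y * t * y⁻¹) * y⁻¹ by group, k.gt, cjm, k.gt, Hc.cj k.gb, mul_assoc, ← map_mul, bsq, map_one, mul_one]
  obtain ⟨m, e⟩ := c.ex (mul_inv_eq_iff_eq_mul.1 yt)
  have z : ∀ {s}, s ∈ Hc ι y → m * s = s * m := fun i => (c.cm_iff e (.of _)).1 (mem_Hc.1 (Hc.mul i i))
  have i := C_b.1 (z k.gb)
  replace e : y * y = ι m := e.resolve_right fun e => b1 (c.i1.1 (mul_left_cancel (a := t) (mul_right_cancel (b := ι m) (by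
    rw [← k.gt, mul_one, ← e]
    conv_lhs => rw [← Hc.cj (k.mem18 c a b i (z a) (z b)), ← cjm, ← e]
    group))))
  have k3 : Y0 ι t (y * y * y) := ⟨by
    rw [show y * y * y * t * (y * y * y)⁻¹ = y * (y * y * t * (y * y)⁻¹) * y⁻¹ by group, yt, k.gt], Hc.mul (Hc.mul k.gb k.gb) k.gb⟩
  have s : y * y * y * (y * y * y) = ι (m * m * m) := by rw [map_mul, map_mul, ← e]; group
  have h : ∀ {s}, s ∈ Hc ι y → s ∈ Hc ι (y * y * y) := fun i => Hc.mul (Hc.mul i i) i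
  have ht : ∀ s, s ∈ Hc ι t := fun s => mem_Hc.2 (c.cm s)
  generalize y * y * y = g at k3 s h
  obtain f | f := (c18 i (z a) (z b)).2.1
  · exact ⟨g, by rw [s, f, map_one], k3, h a, h b⟩
  refine ⟨g * t, ?_, ⟨by rw [← k3.gt]; group, Hc.mul k3.gb (ht _)⟩, Hc.mul (h a) (ht _), Hc.mul (h b) (ht _)⟩
  rw [show g * t * (g * t) = g * t * g⁻¹ * (g * g) * t by group, k3.gt, s, f, mul_assoc t, ← map_mul, bsq, map_one, mul_one, c.tt]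

theorem inv18 (gg : g * g = 1) (k : Y0 ι t g) (a : ρ3 ∈ Hc ι g) (b : σ3 ∈ Hc ι g) (i : u ∈ P2) (a' : u * ρ3 * u⁻¹ ∈ Hc ι g)
    (b' : u * σ3 * u⁻¹ ∈ Hc ι g) : g * ι u * g⁻¹ = ι u ∨ g * ι u * g⁻¹ = ι (u * bb 1 2) := by
  obtain ⟨n, j, e⟩ := k.im c i
  have z : ∀ {s}, n * s * n⁻¹ = u * s * u⁻¹ → u⁻¹ * n * s = s * (u⁻¹ * n) := fun h => by
    rw [mul_assoc, mul_inv_eq_iff_eq_mul.1 h]; group
  have l := mul_mem (inv_mem i) j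
  have p := z (cmt c e a a')
  have q := z (cmt c e b b')
  have h := Hc.cj (k.mem18 c a b l p q)
  obtain ⟨-, -, r, r'⟩ := c18 l p q
  have x : g * ((ι u)⁻¹ * (g * ι u * g⁻¹)) * g⁻¹ * ((ι u)⁻¹ * (g * ι u * g⁻¹)) = 1 := by
    calc _ = g * (ι u)⁻¹ * g * ι u * (g * g)⁻¹ * (ι u)⁻¹ * g * ι u * g⁻¹ := by group
      _ = g * (ι u)⁻¹ * (g * g) * ι u * g⁻¹ := by conv_lhs => rw [gg]
                                                  group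
      _ = _ := by rw [gg]; group
  obtain f | f := c.mul (c.inv (.of u)) e <;> rw [f] at x
  · rw [h, ← map_mul, c.i1] at x
    rw [inv_mul_eq_iff_eq_mul, ← map_mul] at f
    obtain r | r := r x <;> simp [f, r]
  · rw [cjm, h, k.gt, mul_assoc, mul_assoc, c.itx, c.itx, c.ttx, ← map_mul, ← map_mul, c.i1, mul_eq_one_iff_inv_eq, si bsq] at x
    exact (r' x.symm).elim

omit c in
theorem me : σ3 * ee 3 * σ3⁻¹ = ee 9 ∧ σ3 * ee 9 * σ3⁻¹ = ee 10 ∧ σ3 * ee 10 * σ3⁻¹ = ee 3 ∧ σ3 * ee 17 * σ3⁻¹ = ee 34 ∧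
    σ3 * ee 34 * σ3⁻¹ = ee 59 ∧ σ3 * ee 59 * σ3⁻¹ = ee 17 ∧ ee 3 * ρ3 = ρ3 * ee 3 ∧
    ee 3 * (σ3 * ee 3 * σ3⁻¹) * (σ3 * σ3 * ee 3 * (σ3 * σ3)⁻¹) = 1 ∧ ee 17 * (ρ3 * ee 17 * ρ3⁻¹) * (ρ3 * ρ3 * ee 17 * (ρ3 * ρ3)⁻¹) = 1 := by
  refine ⟨?_, ?_, ?_, ?_, ?_, ?_, ?_, ?_, ?_⟩ <;> refine cd_inj ?_
  all_goals simp only [cd_mul, cd_inv, cd_ee, cd_ρ, cd_σ, cd_one]; decide +kernel

theorem fix3 {i j k : ℕ} (gg : g * g = 1) (b : σ3 ∈ Hc ι g) (p : σ3 * ee i * σ3⁻¹ = ee j) (q : σ3 * ee j * σ3⁻¹ = ee k)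
    (r : σ3 * ee k * σ3⁻¹ = ee i) (z : ee j ≠ ee i ∧ ee k ≠ ee i) (e : g * ι (ee i) * g⁻¹ = ι m) (f : m = ee i ∨ m = ee j ∨ m = ee k) :
    ee i ∈ Hc ι g ∧ ee j ∈ Hc ι g := by
  suffices h : ee i ∈ Hc ι g from ⟨h, p ▸ mul_mem (mul_mem b h) (inv_mem b)⟩
  have s : ∀ u, σ3 * σ3 * u * (σ3 * σ3)⁻¹ = σ3 * (σ3 * u * σ3⁻¹) * σ3⁻¹ := fun u => by group
  rcases f with rfl | rfl | rfl
  · exact Hc.of e
  · have := inv3 gg b (p ▸ e)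
    rw [p, q, c.ii] at this
    exact (z.2 this).elim
  · have := inv3 (u := ee i) gg (mul_mem b b) (by rwa [s, p, q])
    rw [s, s, p, q, r, p, c.ii] at this
    exact (z.1 this).elim

omit c in
theorem eH {i j : ℕ} (a : ee i ∈ Hc ι g) (b : ee j ∈ Hc ι g) : ee (i ^^^ j) ∈ Hc ι g := ee_mul i j ▸ mul_mem a b

omit c in
theorem mp : ∃ p ∈ PP, ∃ s ∈ PP, ee 4 = p * ee 38 * p⁻¹ ∧ p * ee 46 * p⁻¹ = ee 28 ∧ ee 28 = s * ee 26 * s⁻¹ ∧ p * ee 8 * p⁻¹ = ee 24 ∧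
    s * ee 8 * s⁻¹ = ee 16 ∧ ee 24 = s * ee 24 * s⁻¹ := by
  have o : ok (lc (1 + 8 * 4 + 64 * 2)) = true := by decide +kernel
  refine ⟨bb 2 32 * lv (1 + 8 * 4 + 64 * 2), mul_mem (SS_le x_SS.2.2) (lv_MM o).1, _, (lv_MM o).1, ?_, ?_, ?_, ?_, ?_, ?_⟩ <;> refine cd_inj ?_
  all_goals simp only [cd_mul, cd_inv, cd_ee, cd_bb, cd_lv o]; decide +kernel

theorem EH (gg : g * g = 1) (k : Y0 ι t g) (a : ρ3 ∈ Hc ι g) (b : σ3 ∈ Hc ι g) : EE ≤ Hc ι g := by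
  obtain ⟨s1, s2, s3, s4, s5, s6, r3, n3, n17⟩ := me
  obtain ⟨-, -, -, -, -, r4, σ4, -⟩ := md
  obtain ⟨e0, e1, e2, e4, e8, -⟩ := ee_val
  have P : ∀ k, ee k ∈ P2 := fun k => SS_P2 (EE_le (ee_EE k))
  have ne : ∀ {i j}, i < 64 → j < 64 → i ≠ j → ee i ≠ ee j := fun a b z e => z (ee_inj a b e)
  have h8 : ee 8 ∈ Hc ι g := e8 ▸ k.gb
  obtain ⟨m, i, e, f⟩ := k.nm c (P 3) b (mul_mem b b) n3
  obtain ⟨h3, h9⟩ := fix3 c gg b s1 s2 s3 ⟨ne (by decide) (by decide) (by decide), ne (by decide) (by decide) (by decide)⟩ e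
    (nσ i (cmt' c (.inl e) a r3) (c.inj (by rw [map_mul, ← e, ← cjm, ← map_mul, EE_sq (ee_EE 3)]; simp))
      (ne1 e c (e0 ▸ ne (by decide) (by decide) (by decide))) f)
  have h1 : ee 1 ∈ Hc ι g := eH h9 h8
  have h2 : ee 2 ∈ Hc ι g := eH h3 h1
  have h4 := inv18 c gg k a b (P 4) (by rw [e4, r4]; exact mul_mem a a) (by rwa [e4, cj_eq σ4])
  rw [← e8, ee_mul] at h4
  clear e f i
  obtain ⟨m, i, e, f⟩ := k.nm c (P 17) a (mul_mem a a) n17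
  have z : ∀ {k}, ee k ∈ Hc ι g → m * ee k = ee k * m := fun h => cmt' c (.inl e) h (EE_cm (ee_EE _) (ee_EE _))
  have z4 : ∀ {k}, g * ι (ee 4) * g⁻¹ = ι (ee k) → m * ee k = ee k * m := fun h => c.inj (by
    rw [map_mul, map_mul, ← h, ← e, ← cjm, ← cjm, ← map_mul, EE_cm (ee_EE _) (ee_EE _), map_mul])
  have mE : m ∈ EE := mem_EE'.2 ⟨(τ_cm (by decide)).1 (e1 ▸ z h1), (τ_cm (by decide)).1 (e2 ▸ z h2), (τ_cm (by decide)).1 (e4 ▸ h4.elim z4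
    fun h => by simpa [ee_mul] using ((show Commute m _ from z4 h).mul_right (z h8)).eq)⟩
  obtain ⟨h17, h34⟩ := fix3 c gg b s4 s5 s6 ⟨ne (by decide) (by decide) (by decide), ne (by decide) (by decide) (by decide)⟩ e
    (nρ mE (ne1 e c (e0 ▸ ne (by decide) (by decide) (by decide))) f)
  have h16 : ee 16 ∈ Hc ι g := eH h17 h1
  suffices h : ee 4 ∈ Hc ι g from ee_gen (by simp [h, h1, h2, h8, h16, show ee 32 ∈ Hc ι g from eH h34 h2])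
  refine Hc.of (h4.resolve_right fun h4 => ?_)
  obtain ⟨p, -, s, -, p1, p2, p3, p4, p5, p6⟩ := mp
  have h24 : ee 24 ∈ Hc ι g := eH h16 h8
  have w : ∀ {j}, ee j ∈ Hc ι g → g * ι (ee (4 ^^^ j)) * g⁻¹ = ι (ee (4 ^^^ 8 ^^^ j)) := fun h => by
    rw [← ee_mul, map_mul, cjm, h4, Hc.cj h, ← map_mul, ee_mul]
  have u : ∀ p m, ι p * g * (ι p)⁻¹ * ι (p * m * p⁻¹) * (ι p * g * (ι p)⁻¹)⁻¹ = ι p * (g * ι m * g⁻¹) * (ι p)⁻¹ := fun p m => by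
    simp only [map_mul, map_inv]; group
  have v : ∀ p, ι p * g * (ι p)⁻¹ * t * (ι p * g * (ι p)⁻¹)⁻¹ = t * ι (p * ee 8 * p⁻¹) := fun p => by
    rw [e8, ← c.cjt' (.of p), ← k.gt]
    conv_lhs => rw [← c.cjt (.of p)]
    group
  have q : ∀ a b d x : G, a * b * d * x * (a * b * d)⁻¹ = a * (b * (d * x * d⁻¹) * b⁻¹) * a⁻¹ := fun a b d x => by group
  have mc : ∀ p m, ι p * ι m * (ι p)⁻¹ = ι (p * m * p⁻¹) := fun p => c.cji (.of p)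
  obtain ⟨n, d⟩ := c.ex (x := g * (ι s * g * (ι s)⁻¹) * (ι p * g * (ι p)⁻¹)) (mul_inv_eq_iff_eq_mul.1 (by
    rw [q, v, p4, cjm (ι s * g * (ι s)⁻¹), v, p5, p6, u, Hc.cj h24, mc, ← p6, mul_assoc t, ← map_mul, ee_mul, cjm, k.gt,
      Hc.cj (eH h16 h24), mul_assoc, ← map_mul, ← e8, ee_mul]
    simp [e0]))
  have := c.cji d (ee 4)
  rw [q, p1, u, show g * ι (ee 38) * g⁻¹ = ι (ee 46) from w h34, mc, ← p1, p2, p3, u, Hc.cj (show ee 26 ∈ _ from eH h24 h2), mc, ← p3,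
    show g * ι (ee 28) * g⁻¹ = ι (ee 20) from w h24, e4, τ_cj _ (by decide), c.ii] at this
  exact (by decide +kernel : ∀ v < 64, ec 20 ≠ tc (v % 64)) _ (ac_lt n 4) (by rw [← cd_ee, this, cd_τ])
end Y

open Y in
theorem Ct.ystep [Finite G] (c : Ct ι t) (d : Dt t (t * ι (bb 1 2))) : ∃ g, Gy ι t g 0 ∨ Gy ι t g 1 := by
  obtain ⟨g, gg, k, a, b⟩ := ex_inv c d
  have e := EH c gg k a b
  have f : Cz ι (Fx 4) g := fun m i => mem_Hc.1 (gen_F4 (fun v hv p q => by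
    obtain ⟨w, hw, j, -, r⟩ := (by decide +kernel : ∀ v < 64, fm v 1 = 0 → fm v 2 = 0 → ∃ w < 8, ∃ j < 3, ap (pw rc j) w = v) v hv p q
    rw [← r, rc, ← cd_ρ, ← cd_pow, ap_cd, ← τ_cj _ (by omega)]
    exact mul_mem (mul_mem (pow_mem a _) (e (τE hw))) (inv_mem (pow_mem a _))) i)
  obtain ⟨-, -, -, -, -, -, -, p, q, -⟩ := md
  exact ⟨g, (inv18 c gg k a b (SS_P2 x_SS.1) (by rwa [cj_eq p]) (q ▸ mul_mem b b)).imp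
    (fun h => ⟨gg, k.gt, f, mem_Hc.1 b, by simpa using h⟩) fun h => ⟨gg, k.gt, f, mem_Hc.1 b, by simpa using h⟩⟩

end CF.Ft
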