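import Cfsg.Agent.Ft.A0
import Cfsg.Agent.Ft.A2
import Cfsg.Agent.Ft.I2
import Cfsg.Agent.Ft.Y1
import Cfsg.Agent.Ft.EG

/-! No group has an involution `t ∈ G'` with centraliser `⟨t⟩ × Sp₆(2)`. -/

set_option autoImplicit false

namespace CF.Ft

variable {G : Type*} [Group G] [Finite G] {ι : Sp →* G} {t : G}

theorem Ct.main (c : Ct ι t) : False := by
  obtain ⟨g, k⟩ := c.ystep (c.pat.resolve_left c.caseI)
  have k3 : ∀ {g α}, Gy ι t g α → C3 ι t → K0 ι t → (∃ y, Y4 ι t y) → False := fun k l k0 ⟨y, a⟩ => by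
    obtain ⟨V, u⟩ := c.ex_V k k0
    obtain ⟨U, w⟩ | ⟨h, j⟩ := u.wj c l a
    · exact w.eg1 c (fun e m _ => m) fun g => w.dt0 c l
    · exact u.eg2 c (fun s => j.fus c) fun g => u.dt c (j.n1 c) (.inr ⟨l, fun e => j.ex_w c⟩) (j.p9 c)
  obtain k | k := k
  · have l := (c.c23 k).resolve_left fun z => z.2 (c.a0 k)
    exact k3 k l (c.a0' k (c.ai k l)).1 (c.a0' k (c.ai k l)).2
  obtain ⟨l, -⟩ | l := c.c23 k
  · obtain ⟨V, u⟩ := c.ex_V k (c.a1 k)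
    exact u.eg1 c l fun g => u.dt c (c.n1g k) (.inl l) (u.p9 c l)
  · exact k3 k l (c.a1 k) (c.a2 k (c.a1 k) l (c.ai k l))

end CF.Ft
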